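-- helper29: four-subgroups of groups with dihedral Sylow 2-subgroups (for S1256).
import Mathlib
import Cfsg.Agent.Helper9.KleinSub
import Cfsg.Agent.Helper9.Dihedral
import Cfsg.Agent.Helper14.Conj
import Cfsg.Agent.Helper16.NPC

set_option autoImplicit false

namespace Cfsg.Agent.Helper29.DihFour

open Cfsg.Agent.Helper9 Cfsg.Agent.Helper14 Cfsg.Agent.Helper16

/-- Normal 2-complement data for a subgroup with cyclic Sylow 2-subgroup `⟨a⟩`. -/
theorem zk {X : Type*} [Group X] [Finite X] (Z : Subgroup X) (P : Sylow 2 ↥Z) (a : X)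
    (hP : (P : Subgroup ↥Z).map Z.subtype = Subgroup.zpowers a) (hev : 2 ∣ Nat.card ↥Z) :
    (∀ y ∈ Z, ∃ κ α : X, κ ∈ Z ∧ Odd (orderOf κ) ∧ α ∈ Subgroup.zpowers a ∧ y = κ * α) ∧
    (∀ κ₁ ∈ Z, ∀ κ₂ ∈ Z, Odd (orderOf κ₁) → Odd (orderOf κ₂) → Odd (orderOf (κ₁ * κ₂))) := by
  have : Fact (Nat.Prime 2) := ⟨Nat.prime_two⟩
  have hcyc : IsCyclic ↥(P : Subgroup ↥Z) := isCyclic_of_map_eq_zpowers Z (P : Subgroup ↥Z) a hP
  have hmf : (Nat.card ↥Z).minFac = 2 := (Nat.minFac_eq_two_iff _).2 hev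
  obtain ⟨N, hNn, hc⟩ : ∃ N : Subgroup ↥Z, N.Normal ∧ N.IsComplement' (P : Subgroup ↥Z) :=
    ⟨_, MonoidHom.normal_ker _, IsCyclic.isComplement' hmf hcyc⟩
  have hNodd : Odd (Nat.card N) := by
    have h1 : (P : Subgroup ↥Z).index = Nat.card N := hc.index_eq_card
    rw [← h1, ← Nat.not_even_iff_odd, even_iff_two_dvd]
    exact P.not_dvd_index
  obtain ⟨f, hf⟩ := IsPGroup.iff_card.1 P.isPGroup'
  have hidx : N.index = 2 ^ f := by
    rw [hc.symm.index_eq_card, hf]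
  have hodd_mem : ∀ n ∈ N, Odd (orderOf ((n : ↥Z) : X)) := by
    intro n hn
    rw [Subgroup.orderOf_coe]
    exact Odd.of_dvd_nat hNodd (Subgroup.orderOf_dvd_natCard N hn)
  constructor
  · intro y hy
    obtain ⟨⟨n, p⟩, hnp⟩ := hc.2 ⟨y, hy⟩
    refine ⟨((n : ↥Z) : X), ((p : ↥Z) : X), (n : ↥Z).2, hodd_mem _ n.2, ?_, ?_⟩
    · rw [← hP]; exact ⟨(p : ↥Z), p.2, rfl⟩
    · have := congrArg Subtype.val hnp
      simpa using this.symm
  · intro κ₁ h₁ κ₂ h₂ o₁ o₂
    have m₁ : (⟨κ₁, h₁⟩ : ↥Z) ∈ N := mem_of_index_pow_of_coprime N f hidx _ (by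
      rw [← Subgroup.orderOf_coe]; exact (Nat.coprime_two_right).2 o₁)
    have m₂ : (⟨κ₂, h₂⟩ : ↥Z) ∈ N := mem_of_index_pow_of_coprime N f hidx _ (by
      rw [← Subgroup.orderOf_coe]; exact (Nat.coprime_two_right).2 o₂)
    have := hodd_mem _ (N.mul_mem m₁ m₂)
    simpa using this

section general

variable {X : Type*} [Group X]

theorem ord_conj (g c : X) : orderOf (g * c * g⁻¹) = orderOf c := by
  have := (MulAut.conj g).orderOf_eq c
  rwa [MulAut.conj_apply] at this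

theorem exists_ne_ne (V : Subgroup X) (hV : 2 < Nat.card V) (x y : X) :
    ∃ w ∈ V, w ≠ x ∧ w ≠ y := by
  by_contra hcon
  push Not at hcon
  have hsub : (V : Set X) ⊆ {x, y} := by
    intro w hw
    by_cases hwx : w = x
    · exact Or.inl hwx
    · exact Or.inr (hcon w hw hwx)
  have h1 : Nat.card V = (V : Set X).ncard := Nat.card_coe_set_eq (V : Set X)
  have h2 := Set.ncard_le_ncard hsub (Set.toFinite _)
  have h3 : ({x, y} : Set X).ncard ≤ 2 := by
    have := Set.ncard_insert_le x ({y} : Set X)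
    rw [Set.ncard_singleton] at this
    exact this
  omega

theorem map_conj_eq_of_forall [Finite X] (U V : Subgroup X) (hc : Nat.card U = Nat.card V)
    (x : X) (hx : ∀ u ∈ U, x * u * x⁻¹ ∈ V) : U.map (MulAut.conj x).toMonoidHom = V := by
  apply Subgroup.eq_of_le_of_card_ge
  · rintro _ ⟨u, hu, rfl⟩
    simpa [MulAut.conj_apply] using hx u hu
  · rw [Subgroup.card_map_of_injective (MulAut.conj x).injective]
    exact hc.ge

theorem mem_normalizer_of_forall [Finite X] (H : Subgroup X) (g : X)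
    (hg : ∀ u ∈ H, g * u * g⁻¹ ∈ H) : g ∈ Subgroup.normalizer (H : Set X) := by
  have h1 := map_conj_eq_of_forall H H rfl g hg
  rw [Subgroup.mem_normalizer_iff]
  intro u
  constructor
  · exact hg u
  · intro hu
    rw [← h1, mem_map_conj] at hu
    have e : g⁻¹ * (g * u * g⁻¹) * g = u := by group
    rw [e] at hu
    exact hu

theorem kfour_conj_le {z s : X} (hzz : z * z = 1) (hss : s * s = 1) (hzs : z * s = s * z)
    (V : Subgroup X) (x : X) (hz : x * z * x⁻¹ ∈ V) (hs : x * s * x⁻¹ ∈ V) :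
    ∀ u ∈ kfour z s hzz hss hzs, x * u * x⁻¹ ∈ V := by
  intro u hu
  rcases mem_kfour.1 hu with h | h | h | h
  · rw [h, mul_one, mul_inv_cancel]; exact V.one_mem
  · rw [h]; exact hz
  · rw [h]; exact hs
  · have e : x * (z * s) * x⁻¹ = (x * z * x⁻¹) * (x * s * x⁻¹) := by group
    rw [h, e]; exact V.mul_mem hz hs

theorem c_facts {c : X} (hc4 : orderOf c = 4) :
    c * c * (c * c) = 1 ∧ c * c ≠ 1 ∧ c⁻¹ = c * c * c ∧ c ≠ c⁻¹ := by
  have h4 : c ^ 4 = 1 := by rw [← hc4]; exact pow_orderOf_eq_one c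
  have h2 : c * c ≠ 1 := by
    intro h
    have : orderOf c ∣ 2 := orderOf_dvd_of_pow_eq_one (by rw [pow_two]; exact h)
    rw [hc4] at this
    exact absurd this (by decide)
  have h4' : c * c * (c * c) = 1 := by
    rw [← h4]; simp only [pow_succ, pow_zero, one_mul, mul_assoc]
  refine ⟨h4', h2, ?_, ?_⟩
  · apply inv_eq_of_mul_eq_one_right
    rw [← h4']; simp only [mul_assoc]
  · intro h
    exact h2 (mul_eq_one_iff_eq_inv.2 h)

theorem conj_pm {g c w : X} (hT : g⁻¹ * c * g = c ∨ g⁻¹ * c * g = c⁻¹)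
    (hT' : g⁻¹ * w * g = c ∨ g⁻¹ * w * g = c⁻¹) : w = c ∨ w = c⁻¹ := by
  have hw : w = g * (g⁻¹ * w * g) * g⁻¹ := by group
  have hgc : g * c * g⁻¹ = c ∨ g * c * g⁻¹ = c⁻¹ := by
    rcases hT with h | h
    · left
      calc g * c * g⁻¹ = g * (g⁻¹ * c * g) * g⁻¹ := by rw [h]
        _ = c := by group
    · right
      calc g * c * g⁻¹ = (g * c⁻¹ * g⁻¹)⁻¹ := by group
        _ = (g * (g⁻¹ * c * g) * g⁻¹)⁻¹ := by rw [h]
        _ = c⁻¹ := by group
  have hgci : ∀ t : X, g * c * g⁻¹ = t → g * c⁻¹ * g⁻¹ = t⁻¹ := by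
    intro t ht
    rw [← ht]; group
  rcases hT' with h | h
  · rw [hw, h]; exact hgc
  · rw [hw, h]
    rcases hgc with h' | h'
    · right; exact hgci _ h'
    · left; rw [hgci _ h', inv_inv]

end general

/-- Dihedral data of a subgroup `S` with respect to `a`, `b`. -/
structure DD {X : Type*} [Group X] (S : Subgroup X) (a b : X) : Prop where
  haS : a ∈ S
  hbS : b ∈ S
  hbA : b ∉ Subgroup.zpowers a
  hinv : ∀ s ∈ S, s ∉ Subgroup.zpowers a → s * s = 1
  hmul : ∀ s ∈ S, ∀ t ∈ S, s ∉ Subgroup.zpowers a → t ∉ Subgroup.zpowers a →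
    s * t ∈ Subgroup.zpowers a
  hconj : ∀ s ∈ S, s ∉ Subgroup.zpowers a → ∃ p ∈ S, s = p * b * p⁻¹ ∨ s = p * (b * a) * p⁻¹
  hnc : ∀ p ∈ S, p * b * p⁻¹ ≠ b * a

section dd

variable {X : Type*} [Group X] {S : Subgroup X} {a b : X}

theorem comm_A {x y : X} (hx : x ∈ Subgroup.zpowers a) (hy : y ∈ Subgroup.zpowers a) :
    x * y = y * x := by
  obtain ⟨i, rfl⟩ := Subgroup.mem_zpowers_iff.1 hx
  obtain ⟨j, rfl⟩ := Subgroup.mem_zpowers_iff.1 hy
  exact (Commute.zpow_zpow_self a i j).eq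

theorem DD.A_le (h : DD S a b) : Subgroup.zpowers a ≤ S := by
  rw [Subgroup.zpowers_le]; exact h.haS

theorem DD.inv_act (h : DD S a b) {s x : X} (hs : s ∈ S) (hsA : s ∉ Subgroup.zpowers a)
    (hx : x ∈ Subgroup.zpowers a) : s * x * s⁻¹ = x⁻¹ := by
  have hxS := h.A_le hx
  have h1 : s * x ∉ Subgroup.zpowers a := fun hc => hsA (by
    have := Subgroup.mul_mem _ hc (Subgroup.inv_mem _ hx)
    simpa using this)
  have h2 := h.hinv (s * x) (S.mul_mem hs hxS) h1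
  have h3 := h.hinv s hs hsA
  have h4 : s⁻¹ = s := inv_eq_of_mul_eq_one_right h3
  rw [h4, eq_inv_iff_mul_eq_one]
  simpa [mul_assoc] using h2

theorem DD.z_central (h : DD S a b) {z : X} (hz : z ∈ Subgroup.zpowers a) (hzz : z * z = 1)
    {s : X} (hs : s ∈ S) : s * z * s⁻¹ = z := by
  by_cases hsA : s ∈ Subgroup.zpowers a
  · rw [comm_A hsA hz]; group
  · rw [h.inv_act hs hsA hz]; exact inv_eq_of_mul_eq_one_right hzz

theorem uniq_inv [Finite X] {c u : X} (hcA : c ∈ Subgroup.zpowers a) (hc4 : orderOf c = 4)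
    (hu : u ∈ Subgroup.zpowers a) (huu : u * u = 1) : u = 1 ∨ u = c * c := by
  by_cases hu1 : u = 1
  · exact Or.inl hu1
  · obtain ⟨h4, h2, -, -⟩ := c_facts hc4
    exact Or.inr (involution_unique_zpowers a u (c * c) hu (Subgroup.mul_mem _ hcA hcA) huu h4
      hu1 h2)

theorem DD.order_four [Finite X] (h : DD S a b) {c t : X} (hcA : c ∈ Subgroup.zpowers a)
    (hc4 : orderOf c = 4) (ht : t ∈ S) (ht4 : orderOf t = 4) : t = c ∨ t = c⁻¹ := by
  obtain ⟨h4, h2, hci, -⟩ := c_facts hc4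
  obtain ⟨t4, t2, -, -⟩ := c_facts ht4
  have htA : t ∈ Subgroup.zpowers a := by
    by_contra hn
    exact t2 (h.hinv t ht hn)
  have htt : t * t = c * c := by
    rcases uniq_inv hcA hc4 (Subgroup.mul_mem _ htA htA) t4 with h1 | h1
    · exact absurd h1 t2
    · exact h1
  have hciA : c⁻¹ ∈ Subgroup.zpowers a := Subgroup.inv_mem _ hcA
  have hu : (t * c⁻¹) * (t * c⁻¹) = 1 := by
    have e : (t * c⁻¹) * (t * c⁻¹) = t * (c⁻¹ * t) * c⁻¹ := by group
    rw [e, comm_A hciA htA, ← mul_assoc, htt]; group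
  rcases uniq_inv hcA hc4 (Subgroup.mul_mem _ htA hciA) hu with h1 | h1
  · left; exact mul_inv_eq_one.1 h1
  · right
    rw [hci]
    exact mul_inv_eq_iff_eq_mul.1 h1

theorem DD.mem_A_of_comm (h : DD S a b) {c s : X} (hcA : c ∈ Subgroup.zpowers a)
    (hc4 : orderOf c = 4) (hs : s ∈ S) (hsc : s * c = c * s) : s ∈ Subgroup.zpowers a := by
  by_contra hn
  obtain ⟨-, -, -, hne⟩ := c_facts hc4
  apply hne
  have h1 := h.inv_act hs hn hcA
  rw [hsc] at h1
  rw [← h1]; group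

theorem DD.c_norm (h : DD S a b) {c s : X} (hcA : c ∈ Subgroup.zpowers a)
    (hs : s ∈ S) (hsA : s ∉ Subgroup.zpowers a)
    (hzz : c * c * (c * c) = 1) (hss : s * s = 1) (hzs : c * c * s = s * (c * c)) :
    ∀ u ∈ kfour (c * c) s hzz hss hzs, c * u * c⁻¹ ∈ kfour (c * c) s hzz hss hzs := by
  have h1 := h.inv_act hs hsA (Subgroup.inv_mem _ hcA)
  rw [inv_inv] at h1
  have h2 : s * c⁻¹ = c * s := mul_inv_eq_iff_eq_mul.1 h1
  have h3 : c * s * c⁻¹ = c * c * s := by rw [mul_assoc, h2, mul_assoc]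
  intro u hu
  rw [mem_kfour]
  rcases mem_kfour.1 hu with e | e | e | e
  · left; rw [e]; group
  · right; left; rw [e]; group
  · right; right; right; rw [e]; exact h3
  · right; right; left
    have e2 : c * (c * c * s) * c⁻¹ = c * c * (c * s * c⁻¹) := by group
    rw [e, e2, h3, ← mul_assoc, hzz, one_mul]

end dd

end Cfsg.Agent.Helper29.DihFour
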