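-- helper29: four-subgroups of groups with dihedral Sylow 2-subgroups, part 2 (for S1256).
import Mathlib
import Cfsg.Agent.Helper29.DihFour

set_option autoImplicit false

namespace Cfsg.Agent.Helper29.DihFour

open Cfsg.Agent.Helper9 Cfsg.Agent.Helper14 Cfsg.Agent.Helper16

variable {X : Type*} [Group X] {a b : X}

/-- Every Klein four-subgroup is conjugate to one containing `z = c²` and `b` or `ba`. -/
theorem DD.classes [Finite X] (S : Sylow 2 X) (h : DD (S : Subgroup X) a b) {c : X}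
    (hcA : c ∈ Subgroup.zpowers a) (hc4 : orderOf c = 4) (V : Subgroup X) (hV : IsKleinFour V) :
    ∃ x : X, x * (c * c) * x⁻¹ ∈ V ∧ (x * b * x⁻¹ ∈ V ∨ x * (b * a) * x⁻¹ ∈ V) := by
  have : Fact (Nat.Prime 2) := ⟨Nat.prime_two⟩
  have hcard : Nat.card V = 4 := hV.card_four
  have hV2 : IsPGroup 2 V := IsPGroup.of_card (n := 2) (by rw [hcard]; norm_num)
  obtain ⟨g, hg⟩ := exists_le_sylow_conj S V hV2
  have hgS : ∀ v ∈ V, g⁻¹ * v * g ∈ (S : Subgroup X) :=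
    fun v hv => (mem_map_conj _ g v).1 (hg hv)
  have hexp : ∀ v ∈ V, v * v = 1 := by
    intro v hv
    have := IsKleinFour.mul_self (⟨v, hv⟩ : ↥V)
    exact congrArg Subtype.val this
  have hA : ∀ v ∈ V, g⁻¹ * v * g ∈ Subgroup.zpowers a → v = 1 ∨ v = g * (c * c) * g⁻¹ := by
    intro v hv hmem
    have h1 : (g⁻¹ * v * g) * (g⁻¹ * v * g) = 1 := by
      have e : (g⁻¹ * v * g) * (g⁻¹ * v * g) = g⁻¹ * (v * v) * g := by group
      rw [e, hexp v hv]; group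
    have e : v = g * (g⁻¹ * v * g) * g⁻¹ := by group
    rcases uniq_inv hcA hc4 hmem h1 with h2 | h2
    · left
      rw [e, h2]; group
    · right
      rw [e, h2]
  obtain ⟨w, hwV, hw1, hwz⟩ := exists_ne_ne V (by omega) 1 (g * (c * c) * g⁻¹)
  have hwA : g⁻¹ * w * g ∉ Subgroup.zpowers a := fun hmem => (hA w hwV hmem).elim hw1 hwz
  have hzV : g * (c * c) * g⁻¹ ∈ V := by
    by_contra hn
    obtain ⟨v, hvV, hv1, hvw⟩ := exists_ne_ne V (by omega) 1 w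
    have hvA : g⁻¹ * v * g ∉ Subgroup.zpowers a := by
      intro hmem
      rcases hA v hvV hmem with h2 | h2
      · exact hv1 h2
      · exact hn (h2 ▸ hvV)
    have h3 := h.hmul _ (hgS v hvV) _ (hgS w hwV) hvA hwA
    have e : g⁻¹ * v * g * (g⁻¹ * w * g) = g⁻¹ * (v * w) * g := by group
    rw [e] at h3
    rcases hA (v * w) (V.mul_mem hvV hwV) h3 with h2 | h2
    · apply hvw
      have := hexp w hwV
      exact mul_right_cancel (h2.trans this.symm)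
    · exact hn (h2 ▸ V.mul_mem hvV hwV)
  obtain ⟨p, hp, hp'⟩ := h.hconj _ (hgS w hwV) hwA
  have hzp : p * (c * c) * p⁻¹ = c * c :=
    h.z_central (Subgroup.mul_mem _ hcA hcA) (c_facts hc4).1 hp
  have e2 : g * (g⁻¹ * w * g) * g⁻¹ = w := by group
  refine ⟨g * p, ?_, ?_⟩
  · have e : g * p * (c * c) * (g * p)⁻¹ = g * (p * (c * c) * p⁻¹) * g⁻¹ := by group
    rw [e, hzp]; exact hzV
  · rcases hp' with h5 | h5
    · left
      have e : g * p * b * (g * p)⁻¹ = g * (p * b * p⁻¹) * g⁻¹ := by group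
      rw [e, ← h5, e2]; exact hwV
    · right
      have e : g * p * (b * a) * (g * p)⁻¹ = g * (p * (b * a) * p⁻¹) * g⁻¹ := by group
      rw [e, ← h5, e2]; exact hwV

/-- Sylow step inside the normalizer of `U₂`. -/
theorem sylow_step [Finite X] (S : Sylow 2 X) (U₁ U₂ : Subgroup X) (c x : X)
    (hc4 : orderOf c = 4)
    (hcU₁ : ∀ u ∈ U₁, c * u * c⁻¹ ∈ U₁) (hcU₂ : ∀ u ∈ U₂, c * u * c⁻¹ ∈ U₂)
    (hx : U₁.map (MulAut.conj x).toMonoidHom = U₂) :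
    ∃ n g : X, (∀ u ∈ U₂, n * u * n⁻¹ ∈ U₂) ∧ g⁻¹ * c * g ∈ (S : Subgroup X) ∧
      g⁻¹ * (n * (x * c * x⁻¹) * n⁻¹) * g ∈ (S : Subgroup X) := by
  have : Fact (Nat.Prime 2) := ⟨Nat.prime_two⟩
  have hcM : c ∈ Subgroup.normalizer (U₂ : Set X) := mem_normalizer_of_forall U₂ c hcU₂
  have hxcM : x * c * x⁻¹ ∈ Subgroup.normalizer (U₂ : Set X) := by
    apply mem_normalizer_of_forall
    intro u hu
    rw [← hx, mem_map_conj] at hu ⊢
    have := hcU₁ _ hu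
    have e : x⁻¹ * (x * c * x⁻¹ * u * (x * c * x⁻¹)⁻¹) * x = c * (x⁻¹ * u * x) * c⁻¹ := by
      group
    rw [e]; exact this
  have hp2 : ∀ t : X, orderOf t = 4 → IsPGroup 2 (Subgroup.zpowers t) := by
    intro t ht
    exact IsPGroup.of_card (n := 2) (by rw [Nat.card_zpowers, ht]; norm_num)
  have hoxc : orderOf (x * c * x⁻¹) = 4 := by rw [ord_conj, hc4]
  obtain ⟨Q₁, hQ₁⟩ := exists_sylow_sub_ge (Subgroup.normalizer (U₂ : Set X))
    (Subgroup.zpowers c) (by rw [Subgroup.zpowers_le]; exact hcM) (hp2 c hc4)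
  obtain ⟨Q₂, hQ₂⟩ := exists_sylow_sub_ge (Subgroup.normalizer (U₂ : Set X))
    (Subgroup.zpowers (x * c * x⁻¹)) (by rw [Subgroup.zpowers_le]; exact hxcM) (hp2 _ hoxc)
  obtain ⟨n, hnM, hn⟩ := sylow_sub_conj (Subgroup.normalizer (U₂ : Set X)) Q₂ Q₁
  obtain ⟨g, hg⟩ := exists_le_sylow_conj S _
    (sylow_sub_isPGroup (Subgroup.normalizer (U₂ : Set X)) Q₁)
  refine ⟨n, g, ?_, ?_, ?_⟩
  · intro u hu
    exact ((Subgroup.mem_normalizer_iff.1 hnM) u).1 hu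
  · exact (mem_map_conj _ g _).1 (hg (hQ₁ (Subgroup.mem_zpowers c)))
  · apply (mem_map_conj _ g _).1
    apply hg
    rw [hn]
    exact conj_mem_map_conj _ n (hQ₂ (Subgroup.mem_zpowers _))

/-- Structure of the centralizer of `c`: normal 2-complement with complement `⟨a⟩`. -/
theorem DD.cent_struct [Finite X] (S : Sylow 2 X) (h : DD (S : Subgroup X) a b) {c : X}
    (hcA : c ∈ Subgroup.zpowers a) (hc4 : orderOf c = 4) :
    (∀ y : X, y * c = c * y → ∃ κ α : X, κ * c = c * κ ∧ Odd (orderOf κ) ∧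
      α ∈ Subgroup.zpowers a ∧ y = κ * α) ∧
    (∀ κ₁ κ₂ : X, κ₁ * c = c * κ₁ → κ₂ * c = c * κ₂ → Odd (orderOf κ₁) → Odd (orderOf κ₂) →
      Odd (orderOf (κ₁ * κ₂))) := by
  have : Fact (Nat.Prime 2) := ⟨Nat.prime_two⟩
  have hmemZ : ∀ y : X, y ∈ Subgroup.centralizer ({c} : Set X) ↔ y * c = c * y := by
    intro y
    rw [Subgroup.mem_centralizer_iff]
    constructor
    · intro hh; exact (hh c rfl).symm
    · intro hh t ht
      rw [Set.mem_singleton_iff.1 ht]; exact hh.symm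
  have hAZ : Subgroup.zpowers a ≤ Subgroup.centralizer ({c} : Set X) := by
    intro y hy
    rw [hmemZ]; exact comm_A hy hcA
  have hA2 : IsPGroup 2 (Subgroup.zpowers a) := S.isPGroup'.to_le h.A_le
  obtain ⟨P, hP⟩ := exists_sylow_sub_ge (Subgroup.centralizer ({c} : Set X))
    (Subgroup.zpowers a) hAZ hA2
  obtain ⟨g, hg⟩ := exists_le_sylow_conj S _
    (sylow_sub_isPGroup (Subgroup.centralizer ({c} : Set X)) P)
  have hcg : g⁻¹ * c * g = c ∨ g⁻¹ * c * g = c⁻¹ := by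
    apply h.order_four hcA hc4
    · exact (mem_map_conj _ g _).1 (hg (hP hcA))
    · have := ord_conj g⁻¹ c
      rw [inv_inv] at this
      rw [this, hc4]
  have hle : (P : Subgroup ↥(Subgroup.centralizer ({c} : Set X))).map
      (Subgroup.centralizer ({c} : Set X)).subtype ≤
      (Subgroup.zpowers a).map (MulAut.conj g).toMonoidHom := by
    intro p hp
    rw [mem_map_conj]
    have hpS := (mem_map_conj _ g _).1 (hg hp)
    have hpZ : p ∈ Subgroup.centralizer ({c} : Set X) := by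
      obtain ⟨q, -, rfl⟩ := hp
      exact q.2
    have hpc : p * c = c * p := (hmemZ p).1 hpZ
    apply h.mem_A_of_comm hcA hc4 hpS
    rcases hcg with h1 | h1
    · calc g⁻¹ * p * g * c = g⁻¹ * p * g * (g⁻¹ * c * g) := by rw [h1]
        _ = g⁻¹ * (p * c) * g := by group
        _ = g⁻¹ * (c * p) * g := by rw [hpc]
        _ = (g⁻¹ * c * g) * (g⁻¹ * p * g) := by group
        _ = c * (g⁻¹ * p * g) := by rw [h1]
    · have h2 : g⁻¹ * p * g * c⁻¹ = c⁻¹ * (g⁻¹ * p * g) := by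
        calc g⁻¹ * p * g * c⁻¹ = g⁻¹ * p * g * (g⁻¹ * c * g) := by rw [h1]
          _ = g⁻¹ * (p * c) * g := by group
          _ = g⁻¹ * (c * p) * g := by rw [hpc]
          _ = (g⁻¹ * c * g) * (g⁻¹ * p * g) := by group
          _ = c⁻¹ * (g⁻¹ * p * g) := by rw [h1]
      have h3 : Commute (g⁻¹ * p * g) c⁻¹ := h2
      exact (Commute.inv_right_iff.1 h3).eq
  have hPeq : (P : Subgroup ↥(Subgroup.centralizer ({c} : Set X))).map
      (Subgroup.centralizer ({c} : Set X)).subtype = Subgroup.zpowers a := by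
    symm
    apply Subgroup.eq_of_le_of_card_ge hP
    have h5 := Subgroup.card_le_of_le hle
    have h6 : Nat.card ((Subgroup.zpowers a).map (MulAut.conj g).toMonoidHom) =
        Nat.card (Subgroup.zpowers a) :=
      Subgroup.card_map_of_injective (MulAut.conj g).injective
    rw [h6] at h5
    exact h5
  have hev : 2 ∣ Nat.card ↥(Subgroup.centralizer ({c} : Set X)) := by
    have hcZ : c ∈ Subgroup.centralizer ({c} : Set X) := hAZ hcA
    have h1 : orderOf (⟨c, hcZ⟩ : ↥(Subgroup.centralizer ({c} : Set X))) ∣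
        Nat.card ↥(Subgroup.centralizer ({c} : Set X)) := orderOf_dvd_natCard _
    rw [Subgroup.orderOf_mk, hc4] at h1
    exact dvd_trans (by norm_num) h1
  obtain ⟨k1, k2⟩ := zk (Subgroup.centralizer ({c} : Set X)) P a hPeq hev
  constructor
  · intro y hy
    obtain ⟨κ, α, hκ, ho, hα, e⟩ := k1 y ((hmemZ y).2 hy)
    exact ⟨κ, α, (hmemZ κ).1 hκ, ho, hα, e⟩
  · intro κ₁ κ₂ h₁ h₂ o₁ o₂
    exact k2 κ₁ ((hmemZ κ₁).2 h₁) κ₂ ((hmemZ κ₂).2 h₂) o₁ o₂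

/-- No element conjugating `b` into `U₂ = {1, z, ba, zba}` can normalize `⟨c⟩`. -/
theorem DD.final [Finite X] (S : Sylow 2 X) (h : DD (S : Subgroup X) a b) {c : X}
    (hcA : c ∈ Subgroup.zpowers a) (hc4 : orderOf c = 4) (y : X)
    (hyc : y * c * y⁻¹ = c ∨ y * c * y⁻¹ = c⁻¹)
    (hyb : y * b * y⁻¹ = 1 ∨ y * b * y⁻¹ = c * c ∨ y * b * y⁻¹ = b * a ∨
      y * b * y⁻¹ = c * c * (b * a)) : False := by
  obtain ⟨k1, k2⟩ := h.cent_struct S hcA hc4
  obtain ⟨h4, h2, hci, hne⟩ := c_facts hc4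
  have hzA : c * c ∈ Subgroup.zpowers a := Subgroup.mul_mem _ hcA hcA
  have hbaS : b * a ∈ (S : Subgroup X) := Subgroup.mul_mem _ h.hbS h.haS
  have hbaA : b * a ∉ Subgroup.zpowers a := fun hmem => h.hbA (by
    have := Subgroup.mul_mem _ hmem (Subgroup.inv_mem _ (Subgroup.mem_zpowers a))
    simpa using this)
  obtain ⟨p₀, hp₀S, hp₀⟩ : ∃ p₀ ∈ (S : Subgroup X), (p₀ * y) * c = c * (p₀ * y) := by
    rcases hyc with h1 | h1
    · refine ⟨1, Subgroup.one_mem _, ?_⟩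
      rw [one_mul]
      exact mul_inv_eq_iff_eq_mul.1 h1
    · refine ⟨b, h.hbS, ?_⟩
      have h3 := h.inv_act h.hbS h.hbA (Subgroup.inv_mem _ hcA)
      rw [inv_inv] at h3
      calc b * y * c = b * (y * c * y⁻¹) * y := by group
        _ = b * c⁻¹ * y := by rw [h1]
        _ = (b * c⁻¹ * b⁻¹) * (b * y) := by group
        _ = c * (b * y) := by rw [h3]
  obtain ⟨κ, α, hκc, hκo, hαA, e⟩ := k1 (p₀ * y) hp₀
  have hy : y = p₀⁻¹ * κ * α := by rw [mul_assoc, ← e]; group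
  have hαS : α ∈ (S : Subgroup X) := h.A_le hαA
  have hb₁S : α * b * α⁻¹ ∈ (S : Subgroup X) :=
    Subgroup.mul_mem _ (Subgroup.mul_mem _ hαS h.hbS) (Subgroup.inv_mem _ hαS)
  have hb₁A : α * b * α⁻¹ ∉ Subgroup.zpowers a := by
    intro hmem
    apply h.hbA
    have := Subgroup.mul_mem _ (Subgroup.mul_mem _ (Subgroup.inv_mem _ hαA) hmem) hαA
    have e2 : α⁻¹ * (α * b * α⁻¹) * α = b := by group
    rwa [e2] at this
  have hybS : y * b * y⁻¹ ∈ (S : Subgroup X) := by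
    rcases hyb with h1 | h1 | h1 | h1
    · rw [h1]; exact Subgroup.one_mem _
    · rw [h1]; exact h.A_le hzA
    · rw [h1]; exact hbaS
    · rw [h1]; exact Subgroup.mul_mem _ (h.A_le hzA) hbaS
  generalize hb₁ : α * b * α⁻¹ = b₁ at hb₁S hb₁A
  have ht : κ * b₁ * κ⁻¹ = p₀ * (y * b * y⁻¹) * p₀⁻¹ := by rw [hy, ← hb₁]; group
  have htS : κ * b₁ * κ⁻¹ ∈ (S : Subgroup X) := by
    rw [ht]; exact Subgroup.mul_mem _ (Subgroup.mul_mem _ hp₀S hybS) (Subgroup.inv_mem _ hp₀S)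
  have hb₁c := h.inv_act hb₁S hb₁A hcA
  have hκ' : (b₁ * κ⁻¹ * b₁⁻¹) * c = c * (b₁ * κ⁻¹ * b₁⁻¹) := by
    have h5 : b₁ * c⁻¹ * b₁⁻¹ = c := by
      have h5' := congrArg (fun t => t⁻¹) hb₁c
      simp only [mul_inv_rev, inv_inv] at h5'
      rw [mul_assoc]; exact h5'
    have h6 : κ⁻¹ * c⁻¹ = c⁻¹ * κ⁻¹ := by
      rw [← mul_inv_rev, ← mul_inv_rev, hκc]
    calc b₁ * κ⁻¹ * b₁⁻¹ * c = b₁ * κ⁻¹ * b₁⁻¹ * (b₁ * c⁻¹ * b₁⁻¹) := by rw [h5]
      _ = b₁ * (κ⁻¹ * c⁻¹) * b₁⁻¹ := by group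
      _ = b₁ * (c⁻¹ * κ⁻¹) * b₁⁻¹ := by rw [h6]
      _ = (b₁ * c⁻¹ * b₁⁻¹) * (b₁ * κ⁻¹ * b₁⁻¹) := by group
      _ = c * (b₁ * κ⁻¹ * b₁⁻¹) := by rw [h5]
  have hκ'o : Odd (orderOf (b₁ * κ⁻¹ * b₁⁻¹)) := by
    rw [ord_conj, orderOf_inv]; exact hκo
  have hodd := k2 κ (b₁ * κ⁻¹ * b₁⁻¹) hκc hκ' hκo hκ'o
  have hcomm_mem : κ * (b₁ * κ⁻¹ * b₁⁻¹) ∈ (S : Subgroup X) := by
    have e3 : κ * (b₁ * κ⁻¹ * b₁⁻¹) = (κ * b₁ * κ⁻¹) * b₁⁻¹ := by group
    rw [e3]; exact Subgroup.mul_mem _ htS (Subgroup.inv_mem _ hb₁S)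
  have hone : κ * (b₁ * κ⁻¹ * b₁⁻¹) = 1 := by
    obtain ⟨j, hj⟩ := exists_orderOf_eq_two_pow (S : Subgroup X) S.isPGroup' _ hcomm_mem
    rw [hj] at hodd
    have hj0 : j = 0 := by
      by_contra hne0
      exact (Nat.not_even_iff_odd.2 hodd) (Nat.even_pow.2 ⟨even_two, hne0⟩)
    rw [hj0, pow_zero] at hj
    exact orderOf_eq_one_iff.1 hj
  have hfix : κ * b₁ * κ⁻¹ = b₁ := by
    have e3 : κ * b₁ * κ⁻¹ = (κ * (b₁ * κ⁻¹ * b₁⁻¹)) * b₁ := by group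
    rw [e3, hone, one_mul]
  have hq : y * b * y⁻¹ = (p₀⁻¹ * α) * b * (p₀⁻¹ * α)⁻¹ := by
    have e4 : y * b * y⁻¹ = p₀⁻¹ * (κ * b₁ * κ⁻¹) * p₀ := by rw [ht]; group
    rw [e4, hfix, ← hb₁]; group
  have hqS : p₀⁻¹ * α ∈ (S : Subgroup X) := Subgroup.mul_mem _ (Subgroup.inv_mem _ hp₀S) hαS
  generalize p₀⁻¹ * α = q at hq hqS
  rw [hq] at hyb
  rcases hyb with h1 | h1 | h1 | h1
  · apply h.hbA
    have hb1 : b = 1 := by
      have e5 : b = q⁻¹ * (q * b * q⁻¹) * q := by group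
      rw [e5, h1]; group
    rw [hb1]; exact Subgroup.one_mem _
  · apply h.hbA
    have e5 : b = q⁻¹ * (q * b * q⁻¹) * q⁻¹⁻¹ := by group
    rw [e5, h1, h.z_central hzA h4 (Subgroup.inv_mem _ hqS)]
    exact hzA
  · exact h.hnc q hqS h1
  · apply h.hnc (c⁻¹ * q) (Subgroup.mul_mem _ (Subgroup.inv_mem _ (h.A_le hcA)) hqS)
    have h7 := h.inv_act hbaS hbaA hcA
    have h8 : b * a * c = c⁻¹ * (b * a) := mul_inv_eq_iff_eq_mul.1 h7
    calc c⁻¹ * q * b * (c⁻¹ * q)⁻¹ = c⁻¹ * (q * b * q⁻¹) * c := by group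
      _ = c⁻¹ * (c * c * (b * a)) * c := by rw [h1]
      _ = c * (b * a * c) := by group
      _ = c * (c⁻¹ * (b * a)) := by rw [h8]
      _ = b * a := by group

end Cfsg.Agent.Helper29.DihFour
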