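import Mathlib
import Cfsg.Agent.S5623

set_option autoImplicit false

namespace Cfsg.Agent.Helper29.GolayAbs

variable {α : Type*} [Fintype α] [DecidableEq α]

/-- reindexing binary words along a bijection with `Fin 24` -/
noncomputable def reidx (e : Fin 24 ≃ α) : (α → ZMod 2) ≃ₗ[ZMod 2] (Fin 24 → ZMod 2) :=
  LinearEquiv.funCongrLeft (ZMod 2) (ZMod 2) e

omit [Fintype α] [DecidableEq α] in
theorem reidx_apply (e : Fin 24 ≃ α) (u : α → ZMod 2) (i : Fin 24) : reidx e u i = u (e i) := rfl

theorem wt_reidx (e : Fin 24 ≃ α) (u : α → ZMod 2) :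
    hammingNorm (reidx e u) = hammingNorm u := by
  show (Finset.univ.filter (fun i => reidx e u i ≠ 0)).card
    = (Finset.univ.filter (fun a => u a ≠ 0)).card
  apply Finset.card_equiv e
  intro i
  rw [Finset.mem_filter, Finset.mem_filter]
  simp only [Finset.mem_univ, true_and, reidx_apply]

theorem disj_reidx (e : Fin 24 ≃ α) (u u' : α → ZMod 2)
    (h : Disjoint (Finset.univ.filter (fun i => reidx e u i ≠ 0))
      (Finset.univ.filter (fun i => reidx e u' i ≠ 0))) :
    Disjoint (Finset.univ.filter (fun a => u a ≠ 0)) (Finset.univ.filter (fun a => u' a ≠ 0)) := by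
  rw [Finset.disjoint_left] at h ⊢
  intro a ha ha'
  simp only [Finset.mem_filter, Finset.mem_univ, true_and] at ha ha'
  have h1 : e.symm a ∈ Finset.univ.filter (fun i => reidx e u i ≠ 0) := by
    rw [Finset.mem_filter]
    simp only [Finset.mem_univ, true_and, reidx_apply, Equiv.apply_symm_apply]
    exact ha
  have h2 : e.symm a ∈ Finset.univ.filter (fun i => reidx e u' i ≠ 0) := by
    rw [Finset.mem_filter]
    simp only [Finset.mem_univ, true_and, reidx_apply, Equiv.apply_symm_apply]
    exact ha'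
  exact h h1 h2

/-- coset leaders for an abstract extended Golay code on any 24-point set -/
theorem leaders (hα : Fintype.card α = 24)
    (C : Submodule (ZMod 2) (α → ZMod 2)) (hdim : Module.finrank (ZMod 2) C = 12)
    (hmin : ∀ w ∈ C, w ≠ 0 → 8 ≤ hammingNorm w) (w : α → ZMod 2) :
    (∃ u : α → ZMod 2, (∀ u', (u' - w ∈ C ∧ hammingNorm u' ≤ 4) ↔ u' = u) ∧ hammingNorm u ≤ 3) ∨
    (∃ S : Finset (α → ZMod 2), S.card = 6 ∧ (∀ u, u ∈ S ↔ (u - w ∈ C ∧ hammingNorm u ≤ 4)) ∧
      ∀ u ∈ S, hammingNorm u = 4 ∧ ∀ u' ∈ S, u ≠ u' →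
        Disjoint (Finset.univ.filter (fun i => u i ≠ 0))
          (Finset.univ.filter (fun i => u' i ≠ 0))) := by
  classical
  have e : Fin 24 ≃ α := (Fintype.equivFinOfCardEq hα).symm
  set φ := reidx e with hφ
  set C' : Submodule (ZMod 2) (Fin 24 → ZMod 2) := C.map φ.toLinearMap with hC'
  have hdim' : Module.finrank (ZMod 2) C' = 12 := by
    rw [hC', LinearEquiv.finrank_map_eq]
    exact hdim
  have hmemC' : ∀ x : α → ZMod 2, φ x ∈ C' ↔ x ∈ C := by
    intro x
    rw [hC', Submodule.mem_map]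
    constructor
    · rintro ⟨y, hy, hyx⟩
      have : y = x := φ.injective hyx
      rw [← this]
      exact hy
    · intro hx
      exact ⟨x, hx, rfl⟩
  have hmin' : ∀ w ∈ C', w ≠ 0 → 8 ≤ hammingNorm w := by
    intro w hw hw0
    obtain ⟨x, hx, rfl⟩ := Submodule.mem_map.1 hw
    have hx0 : x ≠ 0 := by
      rintro rfl
      exact hw0 (map_zero _)
    have := hmin x hx hx0
    rw [← wt_reidx e x] at this
    exact this
  have hsub : ∀ u : α → ZMod 2, (φ u - φ w ∈ C' ∧ hammingNorm (φ u) ≤ 4) ↔
      (u - w ∈ C ∧ hammingNorm u ≤ 4) := by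
    intro u
    rw [← map_sub, hmemC', hφ, wt_reidx]
  rcases Cfsg.Agent.S5623.main C' hdim' hmin' (φ w) with ⟨u0, h1, h2⟩ | ⟨S0, hS0, hmem, hprop⟩
  · left
    refine ⟨φ.symm u0, ?_, ?_⟩
    · intro u'
      rw [← hsub, h1 (φ u')]
      constructor
      · intro h
        rw [← h, LinearEquiv.symm_apply_apply]
      · intro h
        rw [h, LinearEquiv.apply_symm_apply]
    · have := wt_reidx e (φ.symm u0)
      rw [← hφ, LinearEquiv.apply_symm_apply] at this
      rw [← this]
      exact h2
  · right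
    refine ⟨S0.image φ.symm, ?_, ?_, ?_⟩
    · rw [Finset.card_image_of_injective _ φ.symm.injective, hS0]
    · intro u
      rw [← hsub, ← hmem, Finset.mem_image]
      constructor
      · rintro ⟨y, hy, rfl⟩
        rw [LinearEquiv.apply_symm_apply]
        exact hy
      · intro h
        exact ⟨φ u, h, LinearEquiv.symm_apply_apply _ _⟩
    · intro u hu
      obtain ⟨y, hy, rfl⟩ := Finset.mem_image.1 hu
      have hw1 := wt_reidx e (φ.symm y)
      rw [← hφ, LinearEquiv.apply_symm_apply] at hw1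
      refine ⟨by rw [← hw1]; exact (hprop y hy).1, ?_⟩
      intro u' hu' hne
      obtain ⟨y', hy', rfl⟩ := Finset.mem_image.1 hu'
      have hne' : y ≠ y' := by
        rintro rfl
        exact hne rfl
      have hd := (hprop y hy).2 y' hy' hne'
      apply disj_reidx e
      rw [← hφ, LinearEquiv.apply_symm_apply, LinearEquiv.apply_symm_apply]
      exact hd

end Cfsg.Agent.Helper29.GolayAbs
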