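import Mathlib
import Cfsg.Agent.Helper29.GolayAbs
import Cfsg.Agent.S0358
import Cfsg.Agent.S0359

set_option autoImplicit false

namespace Cfsg.Agent.Helper29.GolayConc

open Cfsg

theorem card_pt : Fintype.card GolayPt = 24 := by
  simp [GolayPt, ZMod.card]

theorem gmin : ∀ w ∈ golayCode, w ≠ 0 → 8 ≤ hammingNorm w := by
  intro w hw hw0
  have h0 : hammingNorm w ≠ 0 := fun h => hw0 (hammingNorm_eq_zero.1 h)
  rcases Cfsg.Agent.S0359.result w hw with h | h | h | h | h <;> omega

/-- coset leaders of the concrete length-24 code -/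
theorem gleaders (w : GolayPt → ZMod 2) :
    (∃ u : GolayPt → ZMod 2, (∀ u', (u' - w ∈ golayCode ∧ hammingNorm u' ≤ 4) ↔ u' = u) ∧
      hammingNorm u ≤ 3) ∨
    (∃ S : Finset (GolayPt → ZMod 2), S.card = 6 ∧
      (∀ u, u ∈ S ↔ (u - w ∈ golayCode ∧ hammingNorm u ≤ 4)) ∧
      ∀ u ∈ S, hammingNorm u = 4 ∧ ∀ u' ∈ S, u ≠ u' →
        Disjoint (Finset.univ.filter (fun i => u i ≠ 0))
          (Finset.univ.filter (fun i => u' i ≠ 0))) :=
  Cfsg.Agent.Helper29.GolayAbs.leaders card_pt golayCode Cfsg.Agent.S0358.result gmin w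

theorem sub_mem_comm (u w : GolayPt → ZMod 2) : w - u ∈ golayCode ↔ u - w ∈ golayCode := by
  constructor
  · intro h
    have := golayCode.neg_mem h
    rwa [neg_sub] at this
  · intro h
    have := golayCode.neg_mem h
    rwa [neg_sub] at this

end Cfsg.Agent.Helper29.GolayConc
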