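-- helper29: isolated involutions (for S1253): products of conjugates have odd order;
-- z-invariant Sylow p-subgroups meet C(z) in a Sylow p-subgroup of C(z).
import Mathlib
import Cfsg.Prelude.Def_TwoFusion
import Cfsg.Agent.Helper9.KleinSub
import Cfsg.Agent.Helper14.Conj
import Cfsg.Agent.Helper16.NPC

set_option autoImplicit false

namespace Cfsg.Agent.Helper29.Isolated

open Cfsg.Agent.Helper14 Cfsg.Agent.Helper16

variable {G : Type*} [Group G]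

theorem inv_of_order_two {z : G} (hz : orderOf z = 2) : z * z = 1 ∧ z⁻¹ = z ∧ z ≠ 1 := by
  have h1 : z * z = 1 := by rw [← pow_two, ← hz]; exact pow_orderOf_eq_one z
  refine ⟨h1, inv_eq_of_mul_eq_one_right h1, ?_⟩
  rintro rfl
  simp at hz

/-- All "reflections" `z * W ^ j` are conjugates of `z`. -/
theorem refl_conj_aux {z y W : G} (e1 : W⁻¹ * z = y) (e2 : z * W = y) (g : G)
    (hy : y = g * z * g⁻¹) (j : ℕ) : ∃ g' : G, z * W ^ j = g' * z * g'⁻¹ := by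
  induction j using Nat.twoStepInduction with
  | zero => exact ⟨1, by simp⟩
  | one => exact ⟨g, by rw [pow_one, e2, hy]⟩
  | more j ih _ =>
    obtain ⟨g', hg'⟩ := ih
    refine ⟨W⁻¹ * g', ?_⟩
    calc z * W ^ (j + 2) = (z * W) * W ^ (j + 1) := by rw [pow_succ' W (j + 1), mul_assoc]
      _ = (W⁻¹ * z) * W ^ j * W := by rw [e2, e1, pow_succ, mul_assoc]
      _ = W⁻¹ * (z * W ^ j) * W := by simp only [mul_assoc]
      _ = W⁻¹ * g' * z * (W⁻¹ * g')⁻¹ := by rw [hg']; group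

/-- For an isolated involution `z`, the product of `z` with any conjugate has odd order. -/
theorem odd_prod [Finite G] {z : G} (hz : Cfsg.IsIsolatedInvolution z) (g : G) :
    Odd (orderOf (z * (g * z * g⁻¹))) := by
  obtain ⟨hzz, hzi, hz1⟩ := inv_of_order_two hz.1
  have hyy : (g * z * g⁻¹) * (g * z * g⁻¹) = 1 := by
    calc g * z * g⁻¹ * (g * z * g⁻¹) = g * (z * z) * g⁻¹ := by group
      _ = 1 := by rw [hzz]; group
  generalize hy : g * z * g⁻¹ = y at hyy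
  have hyi : y⁻¹ = y := inv_eq_of_mul_eq_one_right hyy
  have e2 : z * (z * y) = y := by rw [← mul_assoc, hzz, one_mul]
  have e1 : (z * y)⁻¹ * z = y := by rw [mul_inv_rev, hyi, hzi, mul_assoc, hzz, mul_one]
  have hzW : z * (z * y) * z⁻¹ = (z * y)⁻¹ := by rw [e2, mul_inv_rev, hyi, hzi]
  generalize z * y = W at e1 e2 hzW
  by_contra hodd
  rw [Nat.not_odd_iff_even] at hodd
  obtain ⟨k, hk⟩ := hodd
  have hn0 : 0 < orderOf W := orderOf_pos W
  have hk0 : k ≠ 0 := by rintro rfl; omega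
  have hu1 : W ^ k ≠ 1 := pow_ne_one_of_lt_orderOf hk0 (by omega)
  have huu : W ^ k * W ^ k = 1 := by rw [← pow_add, ← hk]; exact pow_orderOf_eq_one W
  have hzu : z * W ^ k * z⁻¹ = W ^ k := by
    rw [← conj_pow, hzW, inv_pow]; exact inv_eq_of_mul_eq_one_right huu
  obtain ⟨g', hg'⟩ := refl_conj_aux e1 e2 g hy.symm k
  have hcomm : Commute z (g' * z * g'⁻¹) := by
    rw [← hg']
    have h1 : z * W ^ k = W ^ k * z := mul_inv_eq_iff_eq_mul.1 hzu
    show z * (z * W ^ k) = z * W ^ k * z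
    calc z * (z * W ^ k) = z * (W ^ k * z) := by rw [h1]
      _ = z * W ^ k * z := (mul_assoc _ _ _).symm
  have h2 := hz.2 g' hcomm
  rw [← hg'] at h2
  exact hu1 (mul_left_cancel (h2.trans (mul_one z).symm))

/-- If an isolated involution `z` centralizes `q` of odd order and a conjugate of `z` inverts
`q`, then `q = 1`. -/
theorem star [Finite G] {z : G} (hz : Cfsg.IsIsolatedInvolution z) (g q : G)
    (hzq : z * q = q * z) (hinv : (g * z * g⁻¹) * q * (g * z * g⁻¹)⁻¹ = q⁻¹)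
    (hq : Odd (orderOf q)) : q = 1 := by
  have hodd := odd_prod hz g
  generalize g * z * g⁻¹ = y at hinv hodd
  have h1 : (z * y) * q * (z * y)⁻¹ = q⁻¹ := by
    calc z * y * q * (z * y)⁻¹ = z * (y * q * y⁻¹) * z⁻¹ := by group
      _ = z * q⁻¹ * z⁻¹ := by rw [hinv]
      _ = q⁻¹ := by
        have hc : Commute z q := hzq
        rw [hc.inv_right.eq]; group
  have h2 : (z * y) * ((z * y) * q * (z * y)⁻¹) * (z * y)⁻¹ = q := by
    rw [h1]
    have e : z * y * q⁻¹ * (z * y)⁻¹ = (z * y * q * (z * y)⁻¹)⁻¹ := by group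
    rw [e, h1, inv_inv]
  have h3 := Cfsg.Agent.Helper9.conj_eq_of_sq_conj_eq (z * y) q hodd h2
  rw [h1] at h3
  have h4 : q * q = 1 := mul_eq_one_iff_eq_inv.2 h3.symm
  have h5 : orderOf q ∣ 2 := orderOf_dvd_of_pow_eq_one (by rw [pow_two]; exact h4)
  have h6 : orderOf q = 1 := by
    rcases (Nat.dvd_prime Nat.prime_two).1 h5 with h | h
    · exact h
    · rw [h] at hq; exact absurd hq (by decide)
  exact orderOf_eq_one_iff.1 h6

/-- Square roots of inverted elements of odd order. -/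
theorem sqrt_inv {z i : G} (hi : Odd (orderOf i)) (hzi : z * i * z⁻¹ = i⁻¹) :
    ∃ u ∈ Subgroup.zpowers i, u * u = i ∧ z * u * z⁻¹ = u⁻¹ := by
  obtain ⟨k, hk⟩ := hi
  refine ⟨i ^ (k + 1), Subgroup.pow_mem _ (Subgroup.mem_zpowers i) _, ?_, ?_⟩
  · rw [← pow_add, show k + 1 + (k + 1) = (2 * k + 1) + 1 by ring, ← hk, pow_succ,
      pow_orderOf_eq_one, one_mul]
  · rw [← conj_pow, hzi, inv_pow]

theorem odd_order_of_mem {p : ℕ} [hpp : Fact p.Prime] (hp : p ≠ 2) (Q : Subgroup G)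
    (hQ : IsPGroup p Q) {x : G} (hx : x ∈ Q) : Odd (orderOf x) := by
  obtain ⟨k, hk⟩ := hQ ⟨x, hx⟩
  have h1 : x ^ (p ^ k) = 1 := by
    have := congrArg Subtype.val hk
    simpa using this
  obtain ⟨l, -, hl⟩ := (Nat.dvd_prime_pow hpp.out).1 (orderOf_dvd_of_pow_eq_one h1)
  rw [hl]
  exact Odd.pow (hpp.out.odd_of_ne_two hp)

theorem phi_inv {z x : G} (hzz : z * z = 1) :
    z * (x * z * x⁻¹ * z⁻¹) * z⁻¹ = (x * z * x⁻¹ * z⁻¹)⁻¹ := by
  have hzi : z⁻¹ = z := inv_eq_of_mul_eq_one_right hzz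
  have hzz' : ∀ t : G, z * (z * t) = t := fun t => by rw [← mul_assoc, hzz, one_mul]
  rw [hzi, eq_inv_iff_mul_eq_one]
  simp only [mul_assoc, hzz', mul_inv_cancel_left, inv_mul_cancel_left, hzz, mul_one]

theorem mem_cent_iff (z x : G) : x ∈ Subgroup.centralizer ({z} : Set G) ↔ x * z = z * x := by
  rw [Subgroup.mem_centralizer_iff]
  constructor
  · intro hh; exact (hh z rfl).symm
  · intro hh t ht
    rw [Set.mem_singleton_iff.1 ht]; exact hh.symm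

/-- `|C_P(z)| · |{x ∈ P : x^z = x⁻¹}| = |P|` for an involution `z` normalizing a Sylow
`p`-subgroup `P`, `p` odd. -/
theorem card_eq [Finite G] {p : ℕ} [Fact p.Prime] (hp : p ≠ 2) (z : G) (hzz : z * z = 1)
    (P : Sylow p G) (hzP : z ∈ Subgroup.normalizer ((P : Subgroup G) : Set G)) :
    Nat.card ↥((P : Subgroup G) ⊓ Subgroup.centralizer ({z} : Set G)) *
      Nat.card {x : G // x ∈ P ∧ z * x * z⁻¹ = x⁻¹} = Nat.card ↥(P : Subgroup G) := by
  classical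
  have hnorm : ∀ x ∈ (P : Subgroup G), z * x * z⁻¹ ∈ (P : Subgroup G) :=
    fun x hx => (Subgroup.mem_normalizer_iff.1 hzP x).1 hx
  have hsq : ∀ i : {x : G // x ∈ P ∧ z * x * z⁻¹ = x⁻¹},
      ∃ u : G, u ∈ (P : Subgroup G) ∧ u * u = i.1 ∧ z * u * z⁻¹ = u⁻¹ := by
    intro i
    have hiP : i.1 ∈ (P : Subgroup G) := i.2.1
    obtain ⟨u, hu, h1, h2⟩ := sqrt_inv (odd_order_of_mem hp _ P.isPGroup' hiP) i.2.2
    exact ⟨u, (Subgroup.zpowers_le.2 hiP) hu, h1, h2⟩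
  choose s hsP hss hsz using hsq
  have hphi : ∀ u : G, z * u * z⁻¹ = u⁻¹ → u * z * u⁻¹ * z⁻¹ = u * u := by
    intro u hu
    calc u * z * u⁻¹ * z⁻¹ = u * (z * u * z⁻¹)⁻¹ := by group
      _ = u * u := by rw [hu, inv_inv]
  have hphi_d : ∀ x d : G, d * z = z * d →
      (x * d) * z * (x * d)⁻¹ * z⁻¹ = x * z * x⁻¹ * z⁻¹ := by
    intro x d hd
    calc x * d * z * (x * d)⁻¹ * z⁻¹ = x * (d * z) * d⁻¹ * x⁻¹ * z⁻¹ := by group
      _ = x * (z * d) * d⁻¹ * x⁻¹ * z⁻¹ := by rw [hd]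
      _ = x * z * x⁻¹ * z⁻¹ := by group
  have hbij : Function.Bijective
      (fun di : ↥((P : Subgroup G) ⊓ Subgroup.centralizer ({z} : Set G)) ×
          {x : G // x ∈ P ∧ z * x * z⁻¹ = x⁻¹} =>
        (⟨s di.2 * di.1.1, Subgroup.mul_mem _ (hsP di.2) (Subgroup.mem_inf.1 di.1.2).1⟩ :
          ↥(P : Subgroup G))) := by
    constructor
    · rintro ⟨d, i⟩ ⟨d', i'⟩ h
      have h0 : s i * d.1 = s i' * d'.1 := congrArg Subtype.val h
      have hd := (mem_cent_iff z _).1 (Subgroup.mem_inf.1 d.2).2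
      have hd' := (mem_cent_iff z _).1 (Subgroup.mem_inf.1 d'.2).2
      have h1 : s i * s i = s i' * s i' := by
        calc s i * s i = s i * z * (s i)⁻¹ * z⁻¹ := (hphi _ (hsz i)).symm
          _ = (s i * d.1) * z * (s i * d.1)⁻¹ * z⁻¹ := (hphi_d _ _ hd).symm
          _ = (s i' * d'.1) * z * (s i' * d'.1)⁻¹ * z⁻¹ := by rw [h0]
          _ = s i' * z * (s i')⁻¹ * z⁻¹ := hphi_d _ _ hd'
          _ = s i' * s i' := hphi _ (hsz i')
      have h2 : i = i' := Subtype.ext (by rw [← hss i, ← hss i', h1])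
      subst h2
      have h3 : d = d' := Subtype.ext (mul_left_cancel h0)
      rw [h3]
    · intro x
      have hxP : (x : G) ∈ (P : Subgroup G) := x.2
      have hiP : (x : G) * z * (x : G)⁻¹ * z⁻¹ ∈ (P : Subgroup G) := by
        have h5 := hnorm _ (Subgroup.inv_mem _ hxP)
        have e : (x : G) * z * (x : G)⁻¹ * z⁻¹ = x * (z * (x : G)⁻¹ * z⁻¹) := by group
        rw [e]; exact Subgroup.mul_mem _ hxP h5
      have hdz : ∀ i : {x : G // x ∈ P ∧ z * x * z⁻¹ = x⁻¹},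
          i.1 = (x : G) * z * (x : G)⁻¹ * z⁻¹ →
          ((s i)⁻¹ * (x : G)) * z = z * ((s i)⁻¹ * (x : G)) := by
        intro i hi
        have h1 : s i * z * (s i)⁻¹ * z⁻¹ = (x : G) * z * (x : G)⁻¹ * z⁻¹ := by
          rw [hphi _ (hsz i), hss i, hi]
        have h2 : s i * z * (s i)⁻¹ = (x : G) * z * (x : G)⁻¹ := mul_right_cancel h1
        calc (s i)⁻¹ * ↑x * z = (s i)⁻¹ * (↑x * z * (↑x : G)⁻¹) * ↑x := by group
          _ = (s i)⁻¹ * (s i * z * (s i)⁻¹) * ↑x := by rw [h2]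
          _ = z * ((s i)⁻¹ * ↑x) := by group
      refine ⟨(⟨(s ⟨_, hiP, phi_inv hzz⟩)⁻¹ * (x : G), Subgroup.mem_inf.2 ⟨?_, ?_⟩⟩,
        ⟨_, hiP, phi_inv hzz⟩), ?_⟩
      · exact Subgroup.mul_mem _ (Subgroup.inv_mem _ (hsP _)) hxP
      · exact (mem_cent_iff z _).2 (hdz _ rfl)
      · apply Subtype.ext
        show s _ * ((s _)⁻¹ * (x : G)) = x
        group
  have h7 := Nat.card_eq_of_bijective _ hbij
  rw [Nat.card_prod] at h7
  exact h7

/-- For an isolated involution `z` and a `z`-invariant Sylow `p`-subgroup `P` (`p` odd),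
`C_P(z)` is a Sylow `p`-subgroup of `C(z)`. -/
theorem part1 [Finite G] {p : ℕ} [hpp : Fact p.Prime] (hp : p ≠ 2) (z : G)
    (hz : Cfsg.IsIsolatedInvolution z) (P : Sylow p G)
    (hzP : z ∈ Subgroup.normalizer ((P : Subgroup G) : Set G)) :
    ¬ p ∣ ((P : Subgroup G) ⊓ Subgroup.centralizer ({z} : Set G)).relIndex
      (Subgroup.centralizer ({z} : Set G)) := by
  classical
  intro hdvd
  obtain ⟨hzz, hzi, hz1⟩ := inv_of_order_two hz.1
  have hcardeq := card_eq hp z hzz P hzP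
  have hDp : IsPGroup p ↥((P : Subgroup G) ⊓ Subgroup.centralizer ({z} : Set G)) :=
    P.isPGroup'.to_le inf_le_left
  obtain ⟨j, hj⟩ := IsPGroup.iff_card.1 hDp
  have h1 := card_mul_relIndex_of_le
    (inf_le_right : (P : Subgroup G) ⊓ Subgroup.centralizer ({z} : Set G) ≤
      Subgroup.centralizer ({z} : Set G))
  have h2 : p ^ (j + 1) ∣ Nat.card ↥(Subgroup.centralizer ({z} : Set G)) := by
    rw [← h1, hj, pow_succ]; exact mul_dvd_mul_left _ hdvd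
  obtain ⟨K₀, hK₀⟩ := Sylow.exists_subgroup_card_pow_prime p h2
  have hQcard : Nat.card ↥(K₀.map (Subgroup.centralizer ({z} : Set G)).subtype) = p ^ (j + 1) := by
    rw [Subgroup.card_map_of_injective (Subgroup.subtype_injective _), hK₀]
  have hQp : IsPGroup p ↥(K₀.map (Subgroup.centralizer ({z} : Set G)).subtype) :=
    IsPGroup.of_card hQcard
  have hQC : ∀ q ∈ K₀.map (Subgroup.centralizer ({z} : Set G)).subtype, q * z = z * q := by
    rintro _ ⟨c, -, rfl⟩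
    exact (mem_cent_iff z _).1 c.2
  obtain ⟨g, hg⟩ := exists_le_sylow_conj P _ hQp
  have hgP : ∀ q ∈ K₀.map (Subgroup.centralizer ({z} : Set G)).subtype,
      g⁻¹ * q * g ∈ (P : Subgroup G) := fun q hq => (mem_map_conj _ g q).1 (hg hq)
  have hlt : Nat.card ↥(P : Subgroup G) <
      Nat.card (↥(K₀.map (Subgroup.centralizer ({z} : Set G)).subtype) ×
        {x : G // x ∈ P ∧ z * x * z⁻¹ = x⁻¹}) := by
    rw [Nat.card_prod, hQcard, ← hcardeq, hj, pow_succ, mul_assoc]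
    have hne : Nonempty {x : G // x ∈ P ∧ z * x * z⁻¹ = x⁻¹} :=
      ⟨⟨1, (P : Subgroup G).one_mem, by simp⟩⟩
    have hIpos : 0 < Nat.card {x : G // x ∈ P ∧ z * x * z⁻¹ = x⁻¹} := Nat.card_pos
    have hp2 : 2 ≤ p := hpp.out.two_le
    have hpj : 0 < p ^ j := Nat.pos_of_ne_zero (pow_ne_zero _ hpp.out.ne_zero)
    apply Nat.mul_lt_mul_of_pos_left _ hpj
    nlinarith
  have hninj : ¬ Function.Injective
      (fun qi : ↥(K₀.map (Subgroup.centralizer ({z} : Set G)).subtype) ×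
        {x : G // x ∈ P ∧ z * x * z⁻¹ = x⁻¹} =>
      (⟨g⁻¹ * qi.1.1 * g * qi.2.1,
        Subgroup.mul_mem _ (hgP _ qi.1.2) qi.2.2.1⟩ : ↥(P : Subgroup G))) :=
    fun hinj => absurd (Nat.card_le_card_of_injective _ hinj) (not_le.2 hlt)
  obtain ⟨⟨q₁, i₁⟩, ⟨q₂, i₂⟩, heq, hne⟩ := Function.not_injective_iff.1 hninj
  have heq' : g⁻¹ * q₁.1 * g * i₁.1 = g⁻¹ * q₂.1 * g * i₂.1 := congrArg Subtype.val heq
  have hr : g⁻¹ * (q₂.1⁻¹ * q₁.1) * g = i₂.1 * i₁.1⁻¹ := by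
    calc g⁻¹ * (q₂.1⁻¹ * q₁.1) * g
        = (g⁻¹ * q₂.1 * g)⁻¹ * (g⁻¹ * q₁.1 * g * i₁.1) * i₁.1⁻¹ := by group
      _ = (g⁻¹ * q₂.1 * g)⁻¹ * (g⁻¹ * q₂.1 * g * i₂.1) * i₁.1⁻¹ := by rw [heq']
      _ = i₂.1 * i₁.1⁻¹ := by group
  have hq1 : q₂.1⁻¹ * q₁.1 = 1 := by
    have hi₁P : i₁.1 ∈ (P : Subgroup G) := i₁.2.1
    obtain ⟨u, hu, huu, huz⟩ := sqrt_inv (odd_order_of_mem hp _ P.isPGroup' hi₁P) i₁.2.2
    apply star hz (g * u) (q₂.1⁻¹ * q₁.1)
    · have ha : Commute q₁.1 z := hQC _ q₁.2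
      have hb : Commute q₂.1 z := hQC _ q₂.2
      exact ((hb.inv_left.mul_left ha).symm).eq
    · have e1 : g * u * z * (g * u)⁻¹ = g * (i₁.1 * z) * g⁻¹ := by
        calc g * u * z * (g * u)⁻¹ = g * (u * (z * u * z⁻¹)⁻¹ * z) * g⁻¹ := by group
          _ = g * (i₁.1 * z) * g⁻¹ := by rw [huz, inv_inv, huu]
      have e2 : q₂.1⁻¹ * q₁.1 = g * (i₂.1 * i₁.1⁻¹) * g⁻¹ := by rw [← hr]; group
      rw [e1, e2]
      calc g * (i₁.1 * z) * g⁻¹ * (g * (i₂.1 * i₁.1⁻¹) * g⁻¹) * (g * (i₁.1 * z) * g⁻¹)⁻¹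
          = g * (i₁.1 * (z * i₂.1 * z⁻¹) * (z * i₁.1 * z⁻¹)⁻¹ * i₁.1⁻¹) * g⁻¹ := by group
        _ = g * (i₁.1 * i₂.1⁻¹ * i₁.1⁻¹⁻¹ * i₁.1⁻¹) * g⁻¹ := by rw [i₂.2.2, i₁.2.2]
        _ = (g * (i₂.1 * i₁.1⁻¹) * g⁻¹)⁻¹ := by group
    · exact odd_order_of_mem hp _ hQp (Subgroup.mul_mem _ (Subgroup.inv_mem _ q₂.2) q₁.2)
  apply hne
  have hq : q₁ = q₂ := Subtype.ext (inv_mul_eq_one.1 hq1).symm
  have hi : i₁ = i₂ := by
    apply Subtype.ext
    rw [hq] at heq'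
    exact mul_left_cancel heq'
  rw [hq, hi]

end Cfsg.Agent.Helper29.Isolated
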