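import Mathlib
import Cfsg.Prelude.Def_GeometricClasses

set_option autoImplicit false
open scoped MatrixGroups
open Matrix

namespace Cfsg.Agent.Helper29.S5968D2

/-- [D2] embedding a block without eigenvectors. -/
theorem embed_block {F : Type*} [Field F] (n e : ℕ) (hne : 1 ≤ e) (hen : e ≤ n) (hodd : Odd (n - e))
    (r : ℕ) (hr : (r : F) ≠ 0)
    (A : Matrix (Fin e) (Fin e) F) (hA : A ^ r = 1) (hdet : A.det = 1)
    (hfix : ∀ (m : F) (v : Fin e → F), A.mulVec v = m • v → v = 0) :
    ∃ (x : Matrix.SpecialLinearGroup (Fin n) F) (l : F), l ≠ 0 ∧ x ^ r = 1 ∧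
      (∀ z : F, (x : Matrix (Fin n) (Fin n) F) ≠ z • (1 : Matrix (Fin n) (Fin n) F)) ∧
      Odd (Module.finrank F (LinearMap.ker (Matrix.toLin' ((x : Matrix (Fin n) (Fin n) F) - l • (1 : Matrix (Fin n) (Fin n) F))))) ∧
      LinearMap.ker (Matrix.toLin' ((x : Matrix (Fin n) (Fin n) F) - l • (1 : Matrix (Fin n) (Fin n) F))) ⊓
        LinearMap.range (Matrix.toLin' ((x : Matrix (Fin n) (Fin n) F) - l • (1 : Matrix (Fin n) (Fin n) F))) = ⊥ ∧
      ∀ m : F, m ≠ l →
        Module.finrank F (LinearMap.ker (Matrix.toLin' ((x : Matrix (Fin n) (Fin n) F) - m • (1 : Matrix (Fin n) (Fin n) F)))) ≠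
        Module.finrank F (LinearMap.ker (Matrix.toLin' ((x : Matrix (Fin n) (Fin n) F) - l • (1 : Matrix (Fin n) (Fin n) F)))) := by
  classical
  have hsum : e + (n - e) = n := by omega
  let ε : Fin e ⊕ Fin (n - e) ≃ Fin n := finSumFinEquiv.trans (finCongr hsum)
  set B : Matrix (Fin e ⊕ Fin (n - e)) (Fin e ⊕ Fin (n - e)) F :=
    Matrix.fromBlocks A 0 0 1 with hB
  have hBk : ∀ k : ℕ, B ^ k = Matrix.fromBlocks (A ^ k) 0 0 1 := by
    intro k
    induction k with
    | zero => simp [Matrix.fromBlocks_one]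
    | succ k ih =>
      rw [pow_succ, ih, hB, Matrix.fromBlocks_multiply]
      simp [pow_succ]
  have hBr : B ^ r = 1 := by rw [hBk, hA, Matrix.fromBlocks_one]
  have hBdet : B.det = 1 := by
    rw [hB, Matrix.det_fromBlocks_zero₂₁, hdet, Matrix.det_one, mul_one]
  set X : Matrix (Fin n) (Fin n) F := B.submatrix ε.symm ε.symm with hX
  have hXalg : X = Matrix.reindexAlgEquiv F F ε B := by
    rw [Matrix.coe_reindexAlgEquiv, Matrix.reindex_apply]
  have hXr : X ^ r = 1 := by
    rw [hXalg, ← map_pow, hBr, map_one]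
  have hXdet : X.det = 1 := by
    rw [hX, Matrix.det_submatrix_equiv_self, hBdet]
  -- action on vectors
  have hXl : ∀ (v : Fin n → F) (i : Fin e),
      (X *ᵥ v) (ε (Sum.inl i)) = (A *ᵥ (fun i' => v (ε (Sum.inl i')))) i := by
    intro v i
    rw [hX, Matrix.submatrix_mulVec_equiv, hB, Matrix.fromBlocks_mulVec]
    simp
    rfl
  have hXr' : ∀ (v : Fin n → F) (j : Fin (n - e)),
      (X *ᵥ v) (ε (Sum.inr j)) = v (ε (Sum.inr j)) := by
    intro v j
    rw [hX, Matrix.submatrix_mulVec_equiv, hB, Matrix.fromBlocks_mulVec]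
    simp
  have hext : ∀ v : Fin n → F, (∀ i, v (ε (Sum.inl i)) = 0) → (∀ j, v (ε (Sum.inr j)) = 0) → v = 0 := by
    intro v h1 h2
    funext k
    obtain ⟨s, rfl⟩ := ε.surjective k
    cases s with
    | inl i => exact h1 i
    | inr j => exact h2 j
  have hker_iff : ∀ (m : F) (v : Fin n → F),
      v ∈ LinearMap.ker (Matrix.toLin' (X - m • (1 : Matrix (Fin n) (Fin n) F))) ↔ X *ᵥ v = m • v := by
    intro m v
    rw [LinearMap.mem_ker, Matrix.toLin'_apply, Matrix.sub_mulVec, Matrix.smul_mulVec,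
      Matrix.one_mulVec, sub_eq_zero]
  -- eigenvectors have zero first block
  have hzero_l : ∀ (m : F) (v : Fin n → F), X *ᵥ v = m • v → ∀ i, v (ε (Sum.inl i)) = 0 := by
    intro m v hv
    have h1 : A *ᵥ (fun i' => v (ε (Sum.inl i'))) = m • (fun i' => v (ε (Sum.inl i'))) := by
      funext i
      rw [← hXl, hv]
      rfl
    have h2 := hfix m _ h1
    intro i
    exact congrFun h2 i
  -- the projection
  let π : (Fin n → F) →ₗ[F] (Fin e → F) := LinearMap.funLeft F F (fun i => ε (Sum.inl i))
  have hπ : ∀ (v : Fin n → F) (i : Fin e), π v i = v (ε (Sum.inl i)) := fun v i => rfl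
  have hπsurj : Function.Surjective π := by
    apply LinearMap.funLeft_surjective_of_injective
    intro a b hab
    have := ε.injective hab
    exact Sum.inl_injective this
  have hπker : Module.finrank F (LinearMap.ker π) = n - e := by
    have h1 := LinearMap.finrank_range_add_finrank_ker π
    rw [LinearMap.range_eq_top.2 hπsurj, finrank_top] at h1
    simp only [Module.finrank_fin_fun] at h1
    omega
  have hK1 : LinearMap.ker (Matrix.toLin' (X - (1 : F) • (1 : Matrix (Fin n) (Fin n) F))) = LinearMap.ker π := by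
    ext v
    rw [hker_iff, LinearMap.mem_ker]
    constructor
    · intro hv
      funext i
      rw [hπ]
      exact hzero_l 1 v hv i
    · intro hv
      have hv' : ∀ i, v (ε (Sum.inl i)) = 0 := fun i => congrFun hv i
      rw [one_smul]
      funext k
      obtain ⟨s, rfl⟩ := ε.surjective k
      cases s with
      | inl i =>
        rw [hXl, hv' i]
        have : (fun i' => v (ε (Sum.inl i'))) = 0 := funext hv'
        rw [this, Matrix.mulVec_zero]
        rfl
      | inr j => exact hXr' v j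
  let x : Matrix.SpecialLinearGroup (Fin n) F := ⟨X, hXdet⟩
  have hxX : (x : Matrix (Fin n) (Fin n) F) = X := rfl
  refine ⟨x, 1, one_ne_zero, ?_, ?_, ?_, ?_, ?_⟩
  · apply Subtype.ext
    have h1 := Matrix.SpecialLinearGroup.coe_pow x r
    rw [hxX] at h1
    rw [h1, hXr]
    rfl
  · intro z hz
    rw [hxX] at hz
    -- all-ones vector on the first block
    let v : Fin n → F := fun k => Sum.elim (fun _ : Fin e => (1 : F)) (fun _ => 0) (ε.symm k)
    have hv : X *ᵥ v = z • v := by
      rw [hz, Matrix.smul_mulVec, Matrix.one_mulVec]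
    have h0 := hzero_l z v hv ⟨0, by omega⟩
    simp [v] at h0
  · rw [hxX, hK1, hπker]
    exact hodd
  · rw [hxX]
    rw [eq_bot_iff]
    rintro y ⟨hy1, ⟨v', hv'⟩⟩
    rw [SetLike.mem_coe, hker_iff] at hy1
    rw [Submodule.mem_bot]
    apply hext
    · exact hzero_l 1 y hy1
    · intro j
      rw [← hv', Matrix.toLin'_apply, Matrix.sub_mulVec, Matrix.smul_mulVec, Matrix.one_mulVec,
        one_smul, Pi.sub_apply, hXr', sub_self]
  · intro m hm
    rw [hxX, hK1, hπker]
    have hbot : LinearMap.ker (Matrix.toLin' (X - m • (1 : Matrix (Fin n) (Fin n) F))) = ⊥ := by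
      rw [eq_bot_iff]
      intro v hv
      rw [hker_iff] at hv
      rw [Submodule.mem_bot]
      apply hext
      · exact hzero_l m v hv
      · intro j
        have h1 := congrFun hv (ε (Sum.inr j))
        rw [hXr', Pi.smul_apply, smul_eq_mul] at h1
        have h2 : (1 - m) * v (ε (Sum.inr j)) = 0 := by linear_combination h1
        rcases mul_eq_zero.1 h2 with h3 | h3
        · exact absurd (sub_eq_zero.1 h3).symm hm
        · exact h3
    rw [hbot, finrank_bot]
    obtain ⟨k, hk⟩ := hodd
    omega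

end Cfsg.Agent.Helper29.S5968D2
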