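import Mathlib
import Cfsg.Prelude.Def_GeometricClasses

set_option autoImplicit false
open scoped MatrixGroups
open Matrix

namespace Cfsg.Agent.Helper29.S5968U1

/-- [U1] unipotent criterion. -/
theorem unip_no_conj {F : Type*} [Field F] {p : ℕ} [Fact p.Prime] [CharP F p] (hp2 : p ≠ 2) {n : ℕ}
    (f : (Fin n → F) → (Fin n → F) → F) (hf : Cfsg.Geo.IsSymplecticForm f)
    (x : Matrix.SpecialLinearGroup (Fin n) F) (hxp : x ^ p = 1)
    (hN3 : ((x : Matrix (Fin n) (Fin n) F) - 1) ^ 3 = 0)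
    (w : Fin n → F)
    (hw : ∀ v : Fin n → F, ∃ a : F, (((x : Matrix (Fin n) (Fin n) F) - 1) ^ 2).mulVec v = a • w)
    (hN2 : ((x : Matrix (Fin n) (Fin n) F) - 1) ^ 2 ≠ 0)
    (P : Matrix.SpecialLinearGroup (Fin n) F) :
    P⁻¹ * x * P ∉ (Cfsg.Geo.similarityGroup f).comap
      (Matrix.SpecialLinearGroup.toGL : Matrix.SpecialLinearGroup (Fin n) F →* GL (Fin n) F) := by
  classical
  intro hmem
  obtain ⟨c, hc⟩ := hmem
  have hQPm : ((P⁻¹ : Matrix.SpecialLinearGroup (Fin n) F) : Matrix (Fin n) (Fin n) F) *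
      (P : Matrix (Fin n) (Fin n) F) = 1 := by
    rw [← Matrix.SpecialLinearGroup.coe_mul, inv_mul_cancel, Matrix.SpecialLinearGroup.coe_one]
  have hPmQ : (P : Matrix (Fin n) (Fin n) F) *
      ((P⁻¹ : Matrix.SpecialLinearGroup (Fin n) F) : Matrix (Fin n) (Fin n) F) = 1 := by
    rw [← Matrix.SpecialLinearGroup.coe_mul, mul_inv_cancel, Matrix.SpecialLinearGroup.coe_one]
  generalize hQ : ((P⁻¹ : Matrix.SpecialLinearGroup (Fin n) F) : Matrix (Fin n) (Fin n) F) = Q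
    at hQPm hPmQ
  generalize hPm : (P : Matrix (Fin n) (Fin n) F) = Pm at hQPm hPmQ
  generalize hX : (x : Matrix (Fin n) (Fin n) F) = X at hN3 hw hN2
  -- the conjugate as a matrix
  have hGdef : ((P⁻¹ * x * P : Matrix.SpecialLinearGroup (Fin n) F) : Matrix (Fin n) (Fin n) F)
      = Q * X * Pm := by
    rw [Matrix.SpecialLinearGroup.coe_mul, Matrix.SpecialLinearGroup.coe_mul, hQ, hPm, hX]
  have hcG : ∀ u v, f ((Q * X * Pm) *ᵥ u) ((Q * X * Pm) *ᵥ v) = (c : F) * f u v := by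
    intro u v
    rw [← hGdef]
    exact hc u v
  have hGp : (Q * X * Pm) ^ p = 1 := by
    have h1 : (P⁻¹ * x * P) ^ p = 1 := by
      have h2 : P⁻¹ * x * P = P⁻¹ * x * P⁻¹⁻¹ := by rw [inv_inv]
      rw [h2, conj_pow, hxp]
      simp
    have := congrArg (fun y : Matrix.SpecialLinearGroup (Fin n) F => (y : Matrix (Fin n) (Fin n) F)) h1
    simp only [Matrix.SpecialLinearGroup.coe_pow, Matrix.SpecialLinearGroup.coe_one] at this
    rw [hGdef] at this
    exact this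
  generalize hG : Q * X * Pm = G at hcG hGp
  have hpow : ∀ (k : ℕ) (u v : Fin n → F), f ((G ^ k) *ᵥ u) ((G ^ k) *ᵥ v) = (c : F) ^ k * f u v := by
    intro k
    induction k with
    | zero => intro u v; simp
    | succ k ih =>
      intro u v
      rw [pow_succ, ← Matrix.mulVec_mulVec, ← Matrix.mulVec_mulVec, ih, hcG, pow_succ]
      ring
  -- zero lemmas
  have hf0l : ∀ v, f 0 v = 0 := by
    intro v
    have := hf.bilinear.smul_left 0 0 v
    simpa using this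
  have hf0r : ∀ v, f v 0 = 0 := by
    intro v
    have := hf.bilinear.smul_right 0 v 0
    simpa using this
  set N : Matrix (Fin n) (Fin n) F := X - 1 with hN
  -- a vector with N² v0 ≠ 0
  have hv0 : ∃ v0 : Fin n → F, (N ^ 2) *ᵥ v0 ≠ 0 := by
    by_contra hcon
    push Not at hcon
    apply hN2
    ext i j
    have := congrFun (hcon (Pi.single j 1)) i
    simpa using this
  obtain ⟨v0, hv0⟩ := hv0
  have hv0ne : v0 ≠ 0 := by
    rintro rfl
    exact hv0 (by simp)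
  -- c = 1
  have hc1 : (c : F) = 1 := by
    obtain ⟨y, hy⟩ := (hf.nondegenerate v0 hv0ne).1
    have h1 := hpow p y v0
    rw [hGp, Matrix.one_mulVec, Matrix.one_mulVec] at h1
    have h2 : (c : F) ^ p = 1 := by
      have h3 : ((c : F) ^ p - 1) * f y v0 = 0 := by rw [sub_mul, ← h1]; ring
      rcases mul_eq_zero.1 h3 with h4 | h4
      · exact sub_eq_zero.1 h4
      · exact absurd h4 hy
    have h5 : ((c : F) - 1) ^ p = 0 := by
      rw [sub_pow_char, one_pow, h2, sub_self]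
    exact sub_eq_zero.1 (pow_eq_zero_iff (Fact.out : p.Prime).ne_zero |>.1 h5)
  have hpres : ∀ u v, f (G *ᵥ u) (G *ᵥ v) = f u v := by
    intro u v
    rw [hcG, hc1, one_mul]
  -- M = G - 1
  set M : Matrix (Fin n) (Fin n) F := G - 1 with hM
  have hGM : ∀ u, G *ᵥ u = u + M *ᵥ u := by
    intro u
    rw [hM, Matrix.sub_mulVec, Matrix.one_mulVec]
    abel
  have hstar : ∀ u v, f u (M *ᵥ v) + f (M *ᵥ u) v + f (M *ᵥ u) (M *ᵥ v) = 0 := by
    intro u v
    have h := hpres u v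
    rw [hGM, hGM, hf.bilinear.add_left, hf.bilinear.add_right, hf.bilinear.add_right] at h
    linear_combination h
  have hMN : M = Q * N * Pm := by
    rw [hM, ← hG, hN, Matrix.mul_sub, Matrix.sub_mul, Matrix.mul_one, hQPm]
  have hM2 : M * M = Q * (N ^ 2) * Pm := by
    rw [hMN]
    calc Q * N * Pm * (Q * N * Pm) = Q * N * (Pm * Q) * N * Pm := by
          simp only [Matrix.mul_assoc]
      _ = Q * (N ^ 2) * Pm := by
          rw [hPmQ, Matrix.mul_one, pow_two]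
          simp only [Matrix.mul_assoc]
  have hM3 : M * M * M = 0 := by
    rw [hM2, hMN]
    calc Q * N ^ 2 * Pm * (Q * N * Pm) = Q * N ^ 2 * (Pm * Q) * N * Pm := by
          simp only [Matrix.mul_assoc]
      _ = Q * (N ^ 2 * N) * Pm := by
          rw [hPmQ, Matrix.mul_one]
          simp only [Matrix.mul_assoc]
      _ = 0 := by
          rw [← pow_succ, hN3, Matrix.mul_zero, Matrix.zero_mul]
  have hM3v : ∀ u, M *ᵥ (M *ᵥ (M *ᵥ u)) = 0 := by
    intro u
    rw [Matrix.mulVec_mulVec, Matrix.mulVec_mulVec, hM3, Matrix.zero_mulVec]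
  have h1 : ∀ u v, f (M *ᵥ (M *ᵥ u)) (M *ᵥ v) = 0 := by
    intro u v
    have h := hstar (M *ᵥ (M *ᵥ u)) v
    rw [hM3v, hf0l, hf0l] at h
    linear_combination h
  have h2 : ∀ u v, f (M *ᵥ u) (M *ᵥ (M *ᵥ v)) = 0 := by
    intro u v
    have h := hstar u (M *ᵥ (M *ᵥ v))
    rw [hM3v, hf0r, hf0r] at h
    linear_combination h
  have hsym : ∀ u v, f (M *ᵥ (M *ᵥ u)) v = f u (M *ᵥ (M *ᵥ v)) := by
    intro u v
    have ha := hstar (M *ᵥ u) v
    have hb := hstar u (M *ᵥ v)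
    rw [h1] at ha
    rw [h2] at hb
    linear_combination ha - hb
  have h2F : (2 : F) ≠ 0 := by
    intro h0
    have h3 : ((2 : ℕ) : F) = 0 := by exact_mod_cast h0
    have h4 := (CharP.cast_eq_zero_iff F p 2).1 h3
    exact hp2 ((Nat.prime_dvd_prime_iff_eq (Fact.out : p.Prime) Nat.prime_two).1 h4)
  have halt : ∀ u, f (M *ᵥ (M *ᵥ u)) u = 0 := by
    intro u
    have ha := hsym u u
    have hb := hf.skew u (M *ᵥ (M *ᵥ u))
    have hc2 : (2 : F) * f (M *ᵥ (M *ᵥ u)) u = 0 := by linear_combination ha + hb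
    rcases mul_eq_zero.1 hc2 with h | h
    · exact absurd h h2F
    · exact h
  have hM2v : ∀ v, M *ᵥ (M *ᵥ v) = Q *ᵥ ((N ^ 2) *ᵥ (Pm *ᵥ v)) := by
    intro v
    rw [Matrix.mulVec_mulVec, hM2]
    simp only [Matrix.mulVec_mulVec, Matrix.mul_assoc]
  have hQinj : ∀ y : Fin n → F, Q *ᵥ y = 0 → y = 0 := by
    intro y hy
    have : Pm *ᵥ (Q *ᵥ y) = y := by rw [Matrix.mulVec_mulVec, hPmQ, Matrix.one_mulVec]
    rw [← this, hy, Matrix.mulVec_zero]
  set u : Fin n → F := Q *ᵥ v0 with hu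
  have hPmu : Pm *ᵥ u = v0 := by rw [hu, Matrix.mulVec_mulVec, hPmQ, Matrix.one_mulVec]
  obtain ⟨a0, ha0⟩ := hw v0
  have ha0ne : a0 ≠ 0 := by
    rintro rfl
    exact hv0 (by rw [ha0, zero_smul])
  have hMu : M *ᵥ (M *ᵥ u) = a0 • (Q *ᵥ w) := by
    rw [hM2v, hPmu, ha0, Matrix.mulVec_smul]
  have hMune : M *ᵥ (M *ᵥ u) ≠ 0 := by
    rw [hM2v, hPmu]
    intro h
    exact hv0 (hQinj _ h)
  obtain ⟨v, hv⟩ := (hf.nondegenerate _ hMune).2
  obtain ⟨a1, ha1⟩ := hw (Pm *ᵥ v)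
  have hMv : M *ᵥ (M *ᵥ v) = (a1 / a0) • (M *ᵥ (M *ᵥ u)) := by
    rw [hM2v, ha1, Matrix.mulVec_smul, hMu, smul_smul, div_mul_cancel₀ _ ha0ne]
  apply hv
  rw [hsym u v, hMv, hf.bilinear.smul_right, ← hsym u u, halt, mul_zero]

end Cfsg.Agent.Helper29.S5968U1
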