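import Mathlib
import Cfsg.Prelude.Def_GeometricClasses

set_option autoImplicit false
open scoped MatrixGroups
open Matrix

namespace Cfsg.Agent.Helper29.S5968U2

/-- [U2] unipotent construction. -/
theorem exists_unip {F : Type*} [Field F] {p : ℕ} [Fact p.Prime] [CharP F p] (hp2 : p ≠ 2) (n : ℕ) (hn : 4 ≤ n) :
    ∃ x : Matrix.SpecialLinearGroup (Fin n) F, x ^ p = 1 ∧
      (∀ z : F, (x : Matrix (Fin n) (Fin n) F) ≠ z • (1 : Matrix (Fin n) (Fin n) F)) ∧
      ((x : Matrix (Fin n) (Fin n) F) - 1) ^ 3 = 0 ∧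
      (∃ w : Fin n → F, ∀ v : Fin n → F, ∃ a : F, (((x : Matrix (Fin n) (Fin n) F) - 1) ^ 2).mulVec v = a • w) ∧
      ((x : Matrix (Fin n) (Fin n) F) - 1) ^ 2 ≠ 0 := by
  classical
  have hne : Nonempty (Fin n) := ⟨⟨0, by omega⟩⟩
  have hp3 : 3 ≤ p := by
    have := (Fact.out : p.Prime).two_le
    omega
  obtain ⟨i0, hi0⟩ : ∃ i : Fin n, i.val = 0 := ⟨⟨0, by omega⟩, rfl⟩
  obtain ⟨i1, hi1⟩ : ∃ i : Fin n, i.val = 1 := ⟨⟨1, by omega⟩, rfl⟩
  obtain ⟨i2, hi2⟩ : ∃ i : Fin n, i.val = 2 := ⟨⟨2, by omega⟩, rfl⟩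
  have h01 : i0 ≠ i1 := by intro h; rw [h] at hi0; omega
  have h02 : i0 ≠ i2 := by intro h; rw [h] at hi0; omega
  have h12 : i1 ≠ i2 := by intro h; rw [h] at hi1; omega
  have h10 : i1 ≠ i0 := h01.symm
  have h20 : i2 ≠ i0 := h02.symm
  have h21 : i2 ≠ i1 := h12.symm
  set N : Matrix (Fin n) (Fin n) F := Matrix.single i0 i1 1 + Matrix.single i1 i2 1 with hN
  have hNN : N ^ 2 = Matrix.single i0 i2 1 := by
    rw [pow_two, hN, Matrix.add_mul, Matrix.mul_add, Matrix.mul_add,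
      Matrix.single_mul_single_same, Matrix.single_mul_single_of_ne (h := h10),
      Matrix.single_mul_single_of_ne (h := h20), Matrix.single_mul_single_of_ne (h := h21)]
    simp
  have hN3 : N ^ 3 = 0 := by
    rw [pow_succ, hNN, hN, Matrix.mul_add, Matrix.single_mul_single_of_ne (h := h20),
      Matrix.single_mul_single_of_ne (h := h21), add_zero]
  have hNp : N ^ p = 0 := pow_eq_zero_of_le hp3 hN3
  set X : Matrix (Fin n) (Fin n) F := 1 + N with hX
  have hXp : X ^ p = 1 := by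
    rw [hX, add_pow_char_of_commute _ (Commute.one_left N), one_pow, hNp, add_zero]
  have hdet : X.det = 1 := by
    have h1 : X.det ^ p = 1 := by rw [← Matrix.det_pow, hXp, Matrix.det_one]
    have h2 : (X.det - 1) ^ p = 0 := by rw [sub_pow_char, one_pow, h1, sub_self]
    exact sub_eq_zero.1 (pow_eq_zero_iff (Fact.out : p.Prime).ne_zero |>.1 h2)
  have hX1 : X - 1 = N := by rw [hX]; abel
  let x : Matrix.SpecialLinearGroup (Fin n) F := ⟨X, hdet⟩
  have hxX : (x : Matrix (Fin n) (Fin n) F) = X := rfl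
  refine ⟨x, ?_, ?_, ?_, ?_, ?_⟩
  · apply Subtype.ext
    have h1 := Matrix.SpecialLinearGroup.coe_pow x p
    rw [hxX] at h1
    rw [h1, hXp]
    rfl
  · intro z hz
    rw [hxX] at hz
    have h := congrFun (congrFun hz i0) i1
    rw [hX, hN] at h
    simp [Matrix.single_apply, Matrix.one_apply, h01, h10] at h
  · show (X - 1) ^ 3 = 0
    rw [hX1]; exact hN3
  · refine ⟨Pi.single i0 1, fun v => ⟨v i2, ?_⟩⟩
    show ((X - 1) ^ 2) *ᵥ v = v i2 • Pi.single i0 1
    rw [hX1, hNN, Matrix.single_mulVec_eq, one_mul]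
  · show (X - 1) ^ 2 ≠ 0
    rw [hX1, hNN]
    intro h
    have h' := congrFun (congrFun h i0) i2
    simp at h'

end Cfsg.Agent.Helper29.S5968U2
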