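import Mathlib
import Cfsg.Prelude.Def_GeometricClasses

set_option autoImplicit false
open scoped MatrixGroups

namespace Cfsg.Agent.Helper29.S5998p9

theorem p9 {F : Type*} [Field F] (w : F) (hw1 : w ≠ 1) (hw3 : w ^ 3 = 1) (a b g y : GL (Fin 3) F)
    (ha : (a : Matrix (Fin 3) (Fin 3) F) * (g : Matrix (Fin 3) (Fin 3) F) = (g : Matrix (Fin 3) (Fin 3) F) * !![1,0,0; 0,w,0; 0,0,w^2])
    (hb : (b : Matrix (Fin 3) (Fin 3) F) * (g : Matrix (Fin 3) (Fin 3) F) = (g : Matrix (Fin 3) (Fin 3) F) * !![0,0,1; 1,0,0; 0,1,0])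
    (hya : y * a = a * y) (hyb : y * b = b * y) :
    ∃ z : F, (y : Matrix (Fin 3) (Fin 3) F) = z • (1 : Matrix (Fin 3) (Fin 3) F) := by
  have hgi : ((g⁻¹ : GL (Fin 3) F) : Matrix (Fin 3) (Fin 3) F) * (g : Matrix (Fin 3) (Fin 3) F) = 1 := by
    rw [← Matrix.GeneralLinearGroup.coe_mul, inv_mul_cancel]; rfl
  have hig : (g : Matrix (Fin 3) (Fin 3) F) * ((g⁻¹ : GL (Fin 3) F) : Matrix (Fin 3) (Fin 3) F) = 1 := by
    rw [← Matrix.GeneralLinearGroup.coe_mul, mul_inv_cancel]; rfl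
  have hyaM : (y : Matrix (Fin 3) (Fin 3) F) * (a : Matrix (Fin 3) (Fin 3) F)
      = (a : Matrix (Fin 3) (Fin 3) F) * (y : Matrix (Fin 3) (Fin 3) F) := by
    rw [← Matrix.GeneralLinearGroup.coe_mul, hya, Matrix.GeneralLinearGroup.coe_mul]
  have hybM : (y : Matrix (Fin 3) (Fin 3) F) * (b : Matrix (Fin 3) (Fin 3) F)
      = (b : Matrix (Fin 3) (Fin 3) F) * (y : Matrix (Fin 3) (Fin 3) F) := by
    rw [← Matrix.GeneralLinearGroup.coe_mul, hyb, Matrix.GeneralLinearGroup.coe_mul]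
  generalize hG : (g : Matrix (Fin 3) (Fin 3) F) = G at *
  generalize hGi : ((g⁻¹ : GL (Fin 3) F) : Matrix (Fin 3) (Fin 3) F) = Gi at *
  generalize hA0 : (a : Matrix (Fin 3) (Fin 3) F) = A0 at *
  generalize hB0 : (b : Matrix (Fin 3) (Fin 3) F) = B0 at *
  generalize hY0 : (y : Matrix (Fin 3) (Fin 3) F) = Y0 at *
  set A : Matrix (Fin 3) (Fin 3) F := !![1,0,0; 0,w,0; 0,0,w^2] with hA
  set B : Matrix (Fin 3) (Fin 3) F := !![0,0,1; 1,0,0; 0,1,0] with hB
  set Y : Matrix (Fin 3) (Fin 3) F := Gi * Y0 * G with hY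
  -- Y commutes with A and B
  have hYA : Y * A = A * Y := by
    calc Y * A = Gi * Y0 * (G * A) := by rw [hY]; simp only [Matrix.mul_assoc]
      _ = Gi * Y0 * (A0 * G) := by rw [ha]
      _ = Gi * (Y0 * A0) * G := by simp only [Matrix.mul_assoc]
      _ = Gi * (A0 * Y0) * G := by rw [hyaM]
      _ = Gi * (A0 * (G * Gi)) * Y0 * G := by rw [hig, Matrix.mul_one]; simp only [Matrix.mul_assoc]
      _ = Gi * (A0 * G) * Gi * Y0 * G := by simp only [Matrix.mul_assoc]
      _ = Gi * (G * A) * Gi * Y0 * G := by rw [ha]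
      _ = (Gi * G) * A * (Gi * Y0 * G) := by simp only [Matrix.mul_assoc]
      _ = A * Y := by rw [hgi, Matrix.one_mul]
  have hYB : Y * B = B * Y := by
    calc Y * B = Gi * Y0 * (G * B) := by rw [hY]; simp only [Matrix.mul_assoc]
      _ = Gi * Y0 * (B0 * G) := by rw [hb]
      _ = Gi * (Y0 * B0) * G := by simp only [Matrix.mul_assoc]
      _ = Gi * (B0 * Y0) * G := by rw [hybM]
      _ = Gi * (B0 * (G * Gi)) * Y0 * G := by rw [hig, Matrix.mul_one]; simp only [Matrix.mul_assoc]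
      _ = Gi * (B0 * G) * Gi * Y0 * G := by simp only [Matrix.mul_assoc]
      _ = Gi * (G * B) * Gi * Y0 * G := by rw [hb]
      _ = (Gi * G) * B * (Gi * Y0 * G) := by simp only [Matrix.mul_assoc]
      _ = B * Y := by rw [hgi, Matrix.one_mul]
  -- facts on w
  have hw0 : w ≠ 0 := by
    rintro rfl
    norm_num at hw3
  have hw2 : w ^ 2 ≠ 1 := by
    intro h
    apply hw1
    have : w ^ 3 = w := by rw [pow_succ, h, one_mul]
    rw [← this, hw3]
  have hw21 : w ^ 2 ≠ w := by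
    intro h
    apply hw1
    have h' : w * (w - 1) = 0 := by linear_combination h
    rcases mul_eq_zero.1 h' with h0 | h0
    · exact absurd h0 hw0
    · exact sub_eq_zero.1 h0
  -- entries
  have e01 : Y 0 1 = 0 := by
    have h := congrFun (congrFun hYA 0) 1
    simp [hA, Matrix.mul_apply, Fin.sum_univ_three] at h
    have h' : Y 0 1 * (w - 1) = 0 := by linear_combination h
    rcases mul_eq_zero.1 h' with h0 | h0
    · exact h0
    · exact absurd (sub_eq_zero.1 h0) hw1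
  have e02 : Y 0 2 = 0 := by
    have h := congrFun (congrFun hYA 0) 2
    simp [hA, Matrix.mul_apply, Fin.sum_univ_three] at h
    have h' : Y 0 2 * (w ^ 2 - 1) = 0 := by linear_combination h
    rcases mul_eq_zero.1 h' with h0 | h0
    · exact h0
    · exact absurd (sub_eq_zero.1 h0) hw2
  have e10 : Y 1 0 = 0 := by
    have h := congrFun (congrFun hYA 1) 0
    simp [hA, Matrix.mul_apply, Fin.sum_univ_three] at h
    have h' : Y 1 0 * (w - 1) = 0 := by linear_combination -h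
    rcases mul_eq_zero.1 h' with h0 | h0
    · exact h0
    · exact absurd (sub_eq_zero.1 h0) hw1
  have e12 : Y 1 2 = 0 := by
    have h := congrFun (congrFun hYA 1) 2
    simp [hA, Matrix.mul_apply, Fin.sum_univ_three] at h
    have h' : Y 1 2 * (w ^ 2 - w) = 0 := by linear_combination h
    rcases mul_eq_zero.1 h' with h0 | h0
    · exact h0
    · exact absurd (sub_eq_zero.1 h0) hw21
  have e20 : Y 2 0 = 0 := by
    have h := congrFun (congrFun hYA 2) 0
    simp [hA, Matrix.mul_apply, Fin.sum_univ_three] at h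
    have h' : Y 2 0 * (w ^ 2 - 1) = 0 := by linear_combination -h
    rcases mul_eq_zero.1 h' with h0 | h0
    · exact h0
    · exact absurd (sub_eq_zero.1 h0) hw2
  have e21 : Y 2 1 = 0 := by
    have h := congrFun (congrFun hYA 2) 1
    simp [hA, Matrix.mul_apply, Fin.sum_univ_three] at h
    have h' : Y 2 1 * (w ^ 2 - w) = 0 := by linear_combination -h
    rcases mul_eq_zero.1 h' with h0 | h0
    · exact h0
    · exact absurd (sub_eq_zero.1 h0) hw21
  have e11 : Y 1 1 = Y 0 0 := by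
    have h := congrFun (congrFun hYB 1) 0
    simp [hB, Matrix.mul_apply, Fin.sum_univ_three] at h
    exact h
  have e22 : Y 2 2 = Y 0 0 := by
    have h := congrFun (congrFun hYB 2) 1
    simp [hB, Matrix.mul_apply, Fin.sum_univ_three] at h
    rw [h, e11]
  have hYz : Y = Y 0 0 • (1 : Matrix (Fin 3) (Fin 3) F) := by
    ext i j
    fin_cases i <;> fin_cases j <;> simp [e01, e02, e10, e12, e20, e21, e11, e22]
  obtain ⟨z, hz⟩ : ∃ z : F, Y = z • (1 : Matrix (Fin 3) (Fin 3) F) := ⟨Y 0 0, hYz⟩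
  refine ⟨z, ?_⟩
  have hY0' : Y0 = G * Y * Gi := by
    rw [hY]
    calc Y0 = (G * Gi) * Y0 * (G * Gi) := by rw [hig, Matrix.one_mul, Matrix.mul_one]
      _ = G * (Gi * Y0 * G) * Gi := by simp only [Matrix.mul_assoc]
  rw [hY0', hz, Matrix.mul_smul, Matrix.smul_mul, Matrix.mul_one, hig]

end Cfsg.Agent.Helper29.S5998p9
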