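import Mathlib
import Cfsg.Prelude.Def_Sporadic_a

set_option autoImplicit false

/-! A strongly regular graph with parameters (100,22,0,6): the neighbours of a vertex carry an
S(3,6,22) whose blocks are the non-neighbours. -/

namespace Cfsg.Agent.Helper29.SRG100

variable {V : Type*} [Fintype V] [DecidableEq V] {G : SimpleGraph V} [DecidableRel G.Adj]

/-- neighbours -/
def Nb (G : SimpleGraph V) [DecidableRel G.Adj] (v : V) : Finset V :=
  Finset.univ.filter (fun x => G.Adj v x)

omit [DecidableEq V] in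
theorem mem_Nb {v x : V} : x ∈ Nb G v ↔ G.Adj v x := by simp [Nb]

omit [DecidableEq V] in
theorem card_Nb (h : G.IsSRGWith 100 22 0 6) (v : V) : (Nb G v).card = 22 := by
  have h1 := h.regular.degree_eq v
  rw [← h1, ← SimpleGraph.card_neighborFinset_eq_degree]
  congr 1
  ext x
  simp [mem_Nb]

theorem card_common (v w : V) :
    Fintype.card ↥(G.commonNeighbors v w) = (Nb G v ∩ Nb G w).card := by
  apply Fintype.card_of_subtype
  intro x
  simp [mem_Nb, SimpleGraph.commonNeighbors]

theorem common_adj (h : G.IsSRGWith 100 22 0 6) {v w : V} (hvw : G.Adj v w) :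
    Nb G v ∩ Nb G w = ∅ :=
  Finset.card_eq_zero.1 (by rw [← card_common]; exact h.of_adj v w hvw)

theorem common_nadj (h : G.IsSRGWith 100 22 0 6) {v w : V} (hne : v ≠ w)
    (hvw : ¬ G.Adj v w) : (Nb G v ∩ Nb G w).card = 6 := by
  rw [← card_common]
  exact h.of_not_adj hne hvw

omit [Fintype V] in
/-- double counting with an indexed family -/
theorem inter_sum_idx {ι : Type*} (S : Finset ι) (c : ι → Finset V) (b : Finset V) (i : ℕ) :
    ∑ j ∈ S, ((b ∩ c j).card).choose i
      = ∑ I ∈ b.powersetCard i, (S.filter (fun j => I ⊆ c j)).card := by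
  have e1 : ∀ j ∈ S, ((b ∩ c j).card).choose i
      = ∑ I ∈ b.powersetCard i, if I ⊆ c j then 1 else 0 := by
    intro j _
    rw [← Finset.card_filter, ← Finset.card_powersetCard]
    congr 1
    ext I
    simp only [Finset.mem_filter, Finset.mem_powersetCard, Finset.subset_inter_iff]
    tauto
  have e2 : ∀ I ∈ b.powersetCard i, (S.filter (fun j => I ⊆ c j)).card
      = ∑ j ∈ S, if I ⊆ c j then 1 else 0 := by
    intro I _
    rw [Finset.card_filter]
  rw [Finset.sum_congr rfl e1, Finset.sum_congr rfl e2]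
  exact Finset.sum_comm

/-- the non-neighbours of `v0` other than `v0` -/
def Mset (G : SimpleGraph V) [DecidableRel G.Adj] (v0 : V) : Finset V :=
  Finset.univ.filter (fun m => m ≠ v0 ∧ ¬ G.Adj v0 m)

theorem mem_Mset {v0 m : V} : m ∈ Mset G v0 ↔ m ≠ v0 ∧ ¬ G.Adj v0 m := by simp [Mset]

theorem card_Mset (h : G.IsSRGWith 100 22 0 6) (v0 : V) : (Mset G v0).card = 77 := by
  have hu : (Finset.univ : Finset V) = insert v0 (Nb G v0 ∪ Mset G v0) := by
    ext x
    simp only [Finset.mem_univ, Finset.mem_insert, Finset.mem_union, mem_Nb, mem_Mset, true_iff]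
    tauto
  have hd : Disjoint (Nb G v0) (Mset G v0) := by
    rw [Finset.disjoint_left]
    intro x hx hx'
    exact (mem_Mset.1 hx').2 (mem_Nb.1 hx)
  have hc := congrArg Finset.card hu
  rw [Finset.card_univ, h.card, Finset.card_insert_of_notMem, Finset.card_union_of_disjoint hd,
    card_Nb h] at hc
  · omega
  · rw [Finset.mem_union, mem_Nb, mem_Mset]
    rintro (h1 | h1)
    · exact G.loopless.irrefl v0 h1
    · exact h1.1 rfl

/-- the neighbourhood is a coclique -/
theorem coclique (h : G.IsSRGWith 100 22 0 6) {v0 x y : V} (hx : G.Adj v0 x) (hy : G.Adj v0 y) :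
    ¬ G.Adj x y := by
  intro hxy
  have h0 := common_adj h hx
  have : y ∈ Nb G v0 ∩ Nb G x := Finset.mem_inter.2 ⟨mem_Nb.2 hy, mem_Nb.2 hxy⟩
  rw [h0] at this
  exact Finset.notMem_empty _ this

/-- the block of a vertex -/
def bl (G : SimpleGraph V) [DecidableRel G.Adj] (v0 m : V) : Finset V := Nb G v0 ∩ Nb G m

theorem card_bl (h : G.IsSRGWith 100 22 0 6) {v0 m : V} (hm : m ∈ Mset G v0) :
    (bl G v0 m).card = 6 :=
  common_nadj h (Ne.symm (mem_Mset.1 hm).1) (mem_Mset.1 hm).2

theorem nb_sub (h : G.IsSRGWith 100 22 0 6) {v0 x : V} (hx : G.Adj v0 x) :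
    Nb G x ⊆ insert v0 (Mset G v0) := by
  intro y hy
  rw [mem_Nb] at hy
  rw [Finset.mem_insert, mem_Mset]
  by_cases e : y = v0
  · exact Or.inl e
  · exact Or.inr ⟨e, fun h0 => coclique h hx h0 hy⟩

theorem card_nb_M (h : G.IsSRGWith 100 22 0 6) {v0 x : V} (hx : G.Adj v0 x) :
    ((Mset G v0).filter (fun m => G.Adj x m)).card = 21 := by
  have e : (Mset G v0).filter (fun m => G.Adj x m) = (Nb G x).erase v0 := by
    ext y
    simp only [Finset.mem_filter, Finset.mem_erase, mem_Nb]
    constructor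
    · rintro ⟨hy, hxy⟩
      exact ⟨(mem_Mset.1 hy).1, hxy⟩
    · rintro ⟨hy, hxy⟩
      have := nb_sub h hx (mem_Nb.2 hxy)
      rw [Finset.mem_insert] at this
      exact ⟨this.resolve_left hy, hxy⟩
  rw [e, Finset.card_erase_of_mem (mem_Nb.2 hx.symm), card_Nb h]

theorem card_nb2_M (h : G.IsSRGWith 100 22 0 6) {v0 x y : V} (hx : G.Adj v0 x)
    (hy : G.Adj v0 y) (hxy : x ≠ y) :
    ((Mset G v0).filter (fun m => G.Adj x m ∧ G.Adj y m)).card = 5 := by
  have e : (Mset G v0).filter (fun m => G.Adj x m ∧ G.Adj y m)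
      = (Nb G x ∩ Nb G y).erase v0 := by
    ext z
    simp only [Finset.mem_filter, Finset.mem_erase, Finset.mem_inter, mem_Nb]
    constructor
    · rintro ⟨hz, h1, h2⟩
      exact ⟨(mem_Mset.1 hz).1, h1, h2⟩
    · rintro ⟨hz, h1, h2⟩
      have := nb_sub h hx (mem_Nb.2 h1)
      rw [Finset.mem_insert] at this
      exact ⟨this.resolve_left hz, h1, h2⟩
  rw [e, Finset.card_erase_of_mem
    (Finset.mem_inter.2 ⟨mem_Nb.2 hx.symm, mem_Nb.2 hy.symm⟩),
    common_nadj h hxy (coclique h hx hy)]

theorem moment1 (h : G.IsSRGWith 100 22 0 6) {v0 m : V} (hm : m ∈ Mset G v0) :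
    ∑ m' ∈ (Mset G v0).erase m, (bl G v0 m ∩ Nb G m').card = 120 := by
  have h1 := inter_sum_idx ((Mset G v0).erase m) (Nb G) (bl G v0 m) 1
  simp only [Nat.choose_one_right] at h1
  rw [h1]
  have h2 : ∀ I ∈ (bl G v0 m).powersetCard 1,
      (((Mset G v0).erase m).filter (fun j => I ⊆ Nb G j)).card = 20 := by
    intro I hI
    rw [Finset.mem_powersetCard] at hI
    obtain ⟨x, rfl⟩ := Finset.card_eq_one.1 hI.2
    have hx : x ∈ bl G v0 m := hI.1 (Finset.mem_singleton_self x)
    rw [bl, Finset.mem_inter, mem_Nb, mem_Nb] at hx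
    have e : ((Mset G v0).erase m).filter (fun j => {x} ⊆ Nb G j)
        = ((Mset G v0).filter (fun j => G.Adj x j)).erase m := by
      ext j
      simp only [Finset.mem_filter, Finset.mem_erase, Finset.singleton_subset_iff, mem_Nb]
      constructor
      · rintro ⟨⟨a, b⟩, c⟩
        exact ⟨a, b, c.symm⟩
      · rintro ⟨a, b, c⟩
        exact ⟨⟨a, b⟩, c.symm⟩
    rw [e, Finset.card_erase_of_mem (Finset.mem_filter.2 ⟨hm, hx.2.symm⟩), card_nb_M h hx.1]
  rw [Finset.sum_const_nat h2, Finset.card_powersetCard, card_bl h hm]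
  rfl

theorem moment2 (h : G.IsSRGWith 100 22 0 6) {v0 m : V} (hm : m ∈ Mset G v0) :
    ∑ m' ∈ (Mset G v0).erase m, ((bl G v0 m ∩ Nb G m').card).choose 2 = 60 := by
  rw [inter_sum_idx ((Mset G v0).erase m) (Nb G) (bl G v0 m) 2]
  have h2 : ∀ I ∈ (bl G v0 m).powersetCard 2,
      (((Mset G v0).erase m).filter (fun j => I ⊆ Nb G j)).card = 4 := by
    intro I hI
    rw [Finset.mem_powersetCard] at hI
    obtain ⟨x, y, hxy, rfl⟩ := Finset.card_eq_two.1 hI.2
    have hx : x ∈ bl G v0 m := hI.1 (by simp)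
    have hy : y ∈ bl G v0 m := hI.1 (by simp)
    rw [bl, Finset.mem_inter, mem_Nb, mem_Nb] at hx hy
    have e : ((Mset G v0).erase m).filter (fun j => {x, y} ⊆ Nb G j)
        = ((Mset G v0).filter (fun j => G.Adj x j ∧ G.Adj y j)).erase m := by
      ext j
      simp only [Finset.mem_filter, Finset.mem_erase, Finset.insert_subset_iff,
        Finset.singleton_subset_iff, mem_Nb]
      constructor
      · rintro ⟨⟨a, b⟩, c, d⟩
        exact ⟨a, b, c.symm, d.symm⟩
      · rintro ⟨a, b, c, d⟩
        exact ⟨⟨a, b⟩, c.symm, d.symm⟩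
    rw [e, Finset.card_erase_of_mem (Finset.mem_filter.2 ⟨hm, hx.2.symm, hy.2.symm⟩),
      card_nb2_M h hx.1 hy.1 hxy]
  rw [Finset.sum_const_nat h2, Finset.card_powersetCard, card_bl h hm]
  rfl

theorem card_nonadj (h : G.IsSRGWith 100 22 0 6) {v0 m : V} (hm : m ∈ Mset G v0) :
    (((Mset G v0).erase m).filter (fun m' => ¬ G.Adj m m')).card = 60 := by
  have hm' := mem_Mset.1 hm
  have h1 : ((Mset G v0).filter (fun m' => G.Adj m m')).card = 16 := by
    have hu : Nb G m = bl G v0 m ∪ (Mset G v0).filter (fun m' => G.Adj m m') := by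
      ext y
      simp only [bl, Finset.mem_union, Finset.mem_inter, Finset.mem_filter, mem_Nb, mem_Mset]
      constructor
      · intro hy
        by_cases h0 : G.Adj v0 y
        · exact Or.inl ⟨h0, hy⟩
        · refine Or.inr ⟨⟨?_, h0⟩, hy⟩
          rintro rfl
          exact hm'.2 hy.symm
      · rintro (⟨_, hy⟩ | ⟨_, hy⟩) <;> exact hy
    have hd : Disjoint (bl G v0 m) ((Mset G v0).filter (fun m' => G.Adj m m')) := by
      rw [Finset.disjoint_left]
      intro y hy hy'
      rw [bl, Finset.mem_inter, mem_Nb] at hy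
      exact (mem_Mset.1 (Finset.mem_filter.1 hy').1).2 hy.1
    have hc := congrArg Finset.card hu
    rw [Finset.card_union_of_disjoint hd, card_Nb h, card_bl h hm] at hc
    omega
  have h2 : ((Mset G v0).erase m).filter (fun m' => G.Adj m m')
      = (Mset G v0).filter (fun m' => G.Adj m m') := by
    ext y
    simp only [Finset.mem_filter, Finset.mem_erase]
    constructor
    · rintro ⟨⟨_, a⟩, b⟩
      exact ⟨a, b⟩
    · rintro ⟨a, b⟩
      exact ⟨⟨fun e => G.loopless.irrefl m (e ▸ b), a⟩, b⟩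
  have h3 := Finset.card_filter_add_card_filter_not
    (s := (Mset G v0).erase m) (fun m' => G.Adj m m')
  rw [h2, h1, Finset.card_erase_of_mem hm, card_Mset h] at h3
  omega

theorem inter_blocks (h : G.IsSRGWith 100 22 0 6) {v0 m m' : V} (hm : m ∈ Mset G v0)
    (hm' : m' ∈ Mset G v0) (hne : m ≠ m') :
    (bl G v0 m ∩ bl G v0 m').card = if G.Adj m m' then 0 else 2 := by
  have e0 : bl G v0 m ∩ bl G v0 m' = bl G v0 m ∩ Nb G m' := by
    ext y
    simp only [bl, Finset.mem_inter]
    tauto
  rw [e0]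
  have hadj0 : ∀ j, G.Adj m j → bl G v0 m ∩ Nb G j = ∅ := by
    intro j hj
    rw [Finset.eq_empty_iff_forall_notMem]
    intro y hy
    rw [bl, Finset.mem_inter, Finset.mem_inter] at hy
    have h0 := common_adj h hj
    have : y ∈ Nb G m ∩ Nb G j := Finset.mem_inter.2 ⟨hy.1.2, hy.2⟩
    rw [h0] at this
    exact Finset.notMem_empty _ this
  by_cases hadj : G.Adj m m'
  · rw [if_pos hadj, hadj0 m' hadj, Finset.card_empty]
  · rw [if_neg hadj]
    have hle : ∀ j ∈ (Mset G v0).erase m, 3 * (bl G v0 m ∩ Nb G j).card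
        ≤ 2 * ((bl G v0 m ∩ Nb G j).card).choose 2 + (if G.Adj m j then 0 else 4) := by
      intro j _
      by_cases hj : G.Adj m j
      · rw [hadj0 j hj, if_pos hj]
        simp
      · rw [if_neg hj]
        have hb : (bl G v0 m ∩ Nb G j).card ≤ 6 :=
          (Finset.card_le_card Finset.inter_subset_left).trans (card_bl h hm).le
        generalize (bl G v0 m ∩ Nb G j).card = i at hb ⊢
        interval_cases i <;> decide
    have hsum : ∑ j ∈ (Mset G v0).erase m, 3 * (bl G v0 m ∩ Nb G j).card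
        = ∑ j ∈ (Mset G v0).erase m, (2 * ((bl G v0 m ∩ Nb G j).card).choose 2
          + (if G.Adj m j then 0 else 4)) := by
      rw [← Finset.mul_sum, moment1 h hm, Finset.sum_add_distrib, ← Finset.mul_sum,
        moment2 h hm, Finset.sum_ite, Finset.sum_const_zero, Finset.sum_const, smul_eq_mul,
        card_nonadj h hm]
      rfl
    have heq := (Finset.sum_eq_sum_iff_of_le hle).1 hsum m'
      (Finset.mem_erase.2 ⟨Ne.symm hne, hm'⟩)
    rw [if_neg hadj] at heq
    have hb : (bl G v0 m ∩ Nb G m').card ≤ 6 :=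
      (Finset.card_le_card Finset.inter_subset_left).trans (card_bl h hm).le
    generalize (bl G v0 m ∩ Nb G m').card = i at hb heq ⊢
    interval_cases i <;> first | rfl | exact absurd heq (by decide)

theorem triple_unique (h : G.IsSRGWith 100 22 0 6) {v0 : V} {T : Finset V}
    (hT : T ⊆ Nb G v0) (h3 : T.card = 3) : ∃! m, m ∈ Mset G v0 ∧ T ⊆ Nb G m := by
  have hsum : ∑ I ∈ (Nb G v0).powersetCard 3, ((Mset G v0).filter (fun j => I ⊆ Nb G j)).card
      = ∑ I ∈ (Nb G v0).powersetCard 3, 1 := by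
    rw [← inter_sum_idx (Mset G v0) (Nb G) (Nb G v0) 3]
    have h20 : ∀ j ∈ Mset G v0, ((Nb G v0 ∩ Nb G j).card).choose 3 = 20 := by
      intro j hj
      have := card_bl h hj
      rw [bl] at this
      rw [this]
      rfl
    rw [Finset.sum_const_nat h20, card_Mset h, Finset.sum_const, Finset.card_powersetCard,
      card_Nb h]
    rfl
  have hle : ∀ I ∈ (Nb G v0).powersetCard 3,
      ((Mset G v0).filter (fun j => I ⊆ Nb G j)).card ≤ 1 := by
    intro I hI
    rw [Finset.mem_powersetCard] at hI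
    rw [Finset.card_le_one]
    intro m hm m' hm' 
    rw [Finset.mem_filter] at hm hm'
    by_contra hne
    have hib := inter_blocks h hm.1 hm'.1 hne
    have hsub : I ⊆ bl G v0 m ∩ bl G v0 m' := by
      intro y hy
      simp only [bl, Finset.mem_inter]
      exact ⟨⟨hI.1 hy, hm.2 hy⟩, hI.1 hy, hm'.2 hy⟩
    have hc := Finset.card_le_card hsub
    rw [hI.2, hib] at hc
    split_ifs at hc <;> omega
  have heq := (Finset.sum_eq_sum_iff_of_le hle).1 hsum T
    (Finset.mem_powersetCard.2 ⟨hT, h3⟩)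
  obtain ⟨m, hm⟩ := Finset.card_eq_one.1 heq
  refine ⟨m, ?_, ?_⟩
  · have : m ∈ (Mset G v0).filter (fun j => T ⊆ Nb G j) := by
      rw [hm]
      exact Finset.mem_singleton_self m
    exact Finset.mem_filter.1 this
  · intro m' hm'
    have : m' ∈ (Mset G v0).filter (fun j => T ⊆ Nb G j) := Finset.mem_filter.2 hm'
    rw [hm] at this
    exact Finset.mem_singleton.1 this

/-- block of `m` on the point type -/
def blk (G : SimpleGraph V) [DecidableRel G.Adj] (v0 m : V) : Finset {x : V // G.Adj v0 x} :=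
  Finset.univ.filter (fun x => G.Adj m x.1)

omit [DecidableEq V] in
theorem mem_blk {v0 m : V} {x : {x : V // G.Adj v0 x}} : x ∈ blk G v0 m ↔ G.Adj m x.1 := by
  simp [blk]

theorem blk_map (v0 m : V) :
    (blk G v0 m).map (Function.Embedding.subtype _) = bl G v0 m := by
  ext y
  simp only [Finset.mem_map, mem_blk, Function.Embedding.coe_subtype, bl, Finset.mem_inter,
    mem_Nb]
  constructor
  · rintro ⟨x, hx, rfl⟩
    exact ⟨x.2, hx⟩
  · rintro ⟨h1, h2⟩
    exact ⟨⟨y, h1⟩, h2, rfl⟩

/-- the blocks -/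
def Blocks (G : SimpleGraph V) [DecidableRel G.Adj] (v0 : V) :
    Set (Finset {x : V // G.Adj v0 x}) :=
  {c | ∃ m ∈ Mset G v0, c = blk G v0 m}

omit [DecidableEq V] in
theorem card_Pt (h : G.IsSRGWith 100 22 0 6) (v0 : V) :
    Fintype.card {x : V // G.Adj v0 x} = 22 := by
  rw [Fintype.card_subtype]
  exact card_Nb h v0

theorem card_blk (h : G.IsSRGWith 100 22 0 6) {v0 m : V} (hm : m ∈ Mset G v0) :
    (blk G v0 m).card = 6 := by
  rw [← Finset.card_map (Function.Embedding.subtype _), blk_map, card_bl h hm]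

theorem blk_inter_card (v0 m m' : V) :
    (blk G v0 m ∩ blk G v0 m').card = (bl G v0 m ∩ bl G v0 m').card := by
  rw [← blk_map, ← blk_map, ← Finset.map_inter, Finset.card_map]

theorem blk_inj (h : G.IsSRGWith 100 22 0 6) {v0 m m' : V} (hm : m ∈ Mset G v0)
    (hm' : m' ∈ Mset G v0) (e : blk G v0 m = blk G v0 m') : m = m' := by
  by_contra hne
  have h1 := inter_blocks h hm hm' hne
  rw [← blk_inter_card, e, Finset.inter_self, card_blk h hm'] at h1
  split_ifs at h1 <;> omega

theorem steiner (h : G.IsSRGWith 100 22 0 6) (v0 : V) :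
    Cfsg.IsSteinerSystem 3 6 (Blocks G v0) := by
  constructor
  · rintro c ⟨m, hm, rfl⟩
    exact card_blk h hm
  · intro T hT
    have hT' : T.map (Function.Embedding.subtype _) ⊆ Nb G v0 := by
      intro y hy
      obtain ⟨x, _, rfl⟩ := Finset.mem_map.1 hy
      exact mem_Nb.2 x.2
    obtain ⟨m, ⟨hm, hsub⟩, hu⟩ := triple_unique h hT' (by rw [Finset.card_map, hT])
    refine ⟨blk G v0 m, ⟨⟨m, hm, rfl⟩, ?_⟩, ?_⟩
    · intro x hx
      rw [mem_blk]
      exact mem_Nb.1 (hsub (Finset.mem_map_of_mem _ hx))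
    · rintro c ⟨⟨m', hm', rfl⟩, hTc⟩
      have hmm : m' = m := hu m' ⟨hm', by
        intro y hy
        obtain ⟨x, hx, rfl⟩ := Finset.mem_map.1 hy
        exact mem_Nb.2 (mem_blk.1 (hTc hx))⟩
      rw [hmm]

/-- the map to the point-block graph -/
def toPB (G : SimpleGraph V) [DecidableRel G.Adj] (v0 : V) (v : V) :
    Option ({x : V // G.Adj v0 x} ⊕ ↥(Blocks G v0)) :=
  if h0 : v = v0 then none
  else if hN : G.Adj v0 v then some (Sum.inl ⟨v, hN⟩)
  else some (Sum.inr ⟨blk G v0 v, v, mem_Mset.2 ⟨h0, hN⟩, rfl⟩)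

theorem toPB_bij (h : G.IsSRGWith 100 22 0 6) (v0 : V) : Function.Bijective (toPB G v0) := by
  constructor
  · intro v w hvw
    unfold toPB at hvw
    by_cases hv0 : v = v0 <;> by_cases hw0 : w = v0
    · rw [hv0, hw0]
    · rw [dif_pos hv0, dif_neg hw0] at hvw
      split_ifs at hvw
    · rw [dif_neg hv0, dif_pos hw0] at hvw
      split_ifs at hvw
    · rw [dif_neg hv0, dif_neg hw0] at hvw
      by_cases hvN : G.Adj v0 v <;> by_cases hwN : G.Adj v0 w
      · rw [dif_pos hvN, dif_pos hwN] at hvw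
        simpa using hvw
      · rw [dif_pos hvN, dif_neg hwN] at hvw
        simp at hvw
      · rw [dif_neg hvN, dif_pos hwN] at hvw
        simp at hvw
      · rw [dif_neg hvN, dif_neg hwN] at hvw
        have e : blk G v0 v = blk G v0 w :=
          congrArg Subtype.val (Sum.inr.inj (Option.some.inj hvw))
        exact blk_inj h (mem_Mset.2 ⟨hv0, hvN⟩) (mem_Mset.2 ⟨hw0, hwN⟩) e
  · rintro (_ | x | ⟨c, m, hm, rfl⟩)
    · exact ⟨v0, by simp [toPB]⟩
    · refine ⟨x.1, ?_⟩
      have hne : x.1 ≠ v0 := by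
        intro e
        have h2 := x.2
        rw [e] at h2
        exact G.loopless.irrefl v0 h2
      simp [toPB, hne, x.2]
    · refine ⟨m, ?_⟩
      have hm' := mem_Mset.1 hm
      simp [toPB, hm'.1, hm'.2]

theorem toPB_adj (h : G.IsSRGWith 100 22 0 6) (v0 v w : V) :
    (Cfsg.pointBlockGraph (Blocks G v0)).Adj (toPB G v0 v) (toPB G v0 w) ↔ G.Adj v w := by
  unfold Cfsg.pointBlockGraph
  rw [SimpleGraph.fromRel_adj]
  unfold toPB
  by_cases hv0 : v = v0 <;> by_cases hw0 : w = v0
  · rw [hv0, hw0]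
    simp
  · subst hv0
    rw [dif_pos rfl, dif_neg hw0]
    by_cases hwN : G.Adj v w
    · rw [dif_pos hwN]
      simp [Cfsg.pointBlockRel, hwN]
    · rw [dif_neg hwN]
      simp [Cfsg.pointBlockRel, hwN]
  · subst hw0
    rw [dif_neg hv0, dif_pos rfl]
    by_cases hvN : G.Adj w v
    · rw [dif_pos hvN]
      simp [Cfsg.pointBlockRel, hvN.symm]
    · rw [dif_neg hvN]
      have : ¬ G.Adj v w := fun e => hvN e.symm
      simp [Cfsg.pointBlockRel, this]
  · rw [dif_neg hv0, dif_neg hw0]
    by_cases hvN : G.Adj v0 v <;> by_cases hwN : G.Adj v0 w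
    · rw [dif_pos hvN, dif_pos hwN]
      have := coclique h hvN hwN
      simp [Cfsg.pointBlockRel, this]
    · rw [dif_pos hvN, dif_neg hwN]
      simp only [Cfsg.pointBlockRel, mem_blk, or_false, ne_eq, Option.some.injEq, reduceCtorEq,
        not_false_eq_true, true_and]
      exact ⟨fun e => e.symm, fun e => e.symm⟩
    · rw [dif_neg hvN, dif_pos hwN]
      simp only [Cfsg.pointBlockRel, mem_blk, false_or, ne_eq, Option.some.injEq, reduceCtorEq,
        not_false_eq_true, true_and]
    · rw [dif_neg hvN, dif_neg hwN]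
      have hvM := mem_Mset.2 ⟨hv0, hvN⟩
      have hwM := mem_Mset.2 ⟨hw0, hwN⟩
      simp only [Cfsg.pointBlockRel, ne_eq, Option.some.injEq, Sum.inr.injEq]
      rw [disjoint_comm (a := blk G v0 w), or_self]
      constructor
      · rintro ⟨hne, hd⟩
        have hvw : v ≠ w := by
          intro e
          apply hne
          subst e
          rfl
        have h1 := inter_blocks h hvM hwM hvw
        rw [← blk_inter_card, Finset.disjoint_iff_inter_eq_empty.1 hd, Finset.card_empty] at h1
        by_contra hadj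
        rw [if_neg hadj] at h1
        omega
      · intro hadj
        have hvw : v ≠ w := fun e => G.loopless.irrefl w (e ▸ hadj)
        refine ⟨fun e => hvw (blk_inj h hvM hwM (congrArg Subtype.val e)), ?_⟩
        have h1 := inter_blocks h hvM hwM hvw
        rw [if_pos hadj, ← blk_inter_card] at h1
        exact Finset.disjoint_iff_inter_eq_empty.2 (Finset.card_eq_zero.1 h1)

/-- isomorphic set systems have isomorphic point-block graphs -/
theorem pb_iso {α β : Type*} [DecidableEq α] [DecidableEq β] {B : Set (Finset α)}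
    {B' : Set (Finset β)} (e : α ≃ β) (he : (fun b => b.image e) '' B = B') :
    Nonempty (Cfsg.pointBlockGraph B ≃g Cfsg.pointBlockGraph B') := by
  have hinv : ∀ c' ∈ B', c'.image e.symm ∈ B := by
    intro c' hc'
    rw [← he] at hc'
    obtain ⟨c, hc, rfl⟩ := hc'
    rw [Finset.image_image]
    have : (e.symm ∘ e) = id := by
      funext x
      simp
    rw [this, Finset.image_id]
    exact hc
  let be : ↥B ≃ ↥B' :=
    { toFun := fun c => ⟨c.1.image e, he ▸ ⟨c.1, c.2, rfl⟩⟩
      invFun := fun c' => ⟨c'.1.image e.symm, hinv c'.1 c'.2⟩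
      left_inv := by
        intro c
        apply Subtype.ext
        show (c.1.image e).image e.symm = c.1
        rw [Finset.image_image]
        have : (e.symm ∘ e) = id := by
          funext x
          simp
        rw [this, Finset.image_id]
      right_inv := by
        intro c'
        apply Subtype.ext
        show (c'.1.image e.symm).image e = c'.1
        rw [Finset.image_image]
        have : (e ∘ e.symm) = id := by
          funext x
          simp
        rw [this, Finset.image_id] }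
  have hrel : ∀ a b : Option (α ⊕ ↥B),
      Cfsg.pointBlockRel B' (Equiv.optionCongr (Equiv.sumCongr e be) a)
        (Equiv.optionCongr (Equiv.sumCongr e be) b) ↔ Cfsg.pointBlockRel B a b := by
    intro a b
    rcases a with _ | a | a <;> rcases b with _ | b | b <;>
      simp only [Cfsg.pointBlockRel, Equiv.optionCongr_apply, Option.map_none, Option.map_some,
        Equiv.sumCongr_apply, Sum.map_inl, Sum.map_inr]
    · exact Function.Injective.mem_finset_image e.injective
    · exact Finset.disjoint_image e.injective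
  refine ⟨{ toEquiv := Equiv.optionCongr (Equiv.sumCongr e be), map_rel_iff' := ?_ }⟩
  intro a b
  unfold Cfsg.pointBlockGraph
  rw [SimpleGraph.fromRel_adj, SimpleGraph.fromRel_adj, hrel, hrel]
  rw [(Equiv.optionCongr (Equiv.sumCongr e be)).injective.ne_iff]

/-- a strongly regular graph (100,22,0,6) is the point-block graph of an S(3,6,22) -/
theorem iso_pb (h : G.IsSRGWith 100 22 0 6) (v0 : V) :
    Nonempty (G ≃g Cfsg.pointBlockGraph (Blocks G v0)) :=
  ⟨{ toEquiv := Equiv.ofBijective (toPB G v0) (toPB_bij h v0)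
     map_rel_iff' := by
       intro v w
       exact toPB_adj h v0 v w }⟩

end Cfsg.Agent.Helper29.SRG100
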