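import Mathlib
import Cfsg.Prelude.Def_Sporadic_a
import Cfsg.Agent.Helper29.SRG100

set_option autoImplicit false

/-! Explicit forms of the isomorphisms of `SRG100`. -/

namespace Cfsg.Agent.Helper29.SRG100

variable {V : Type*} [Fintype V] [DecidableEq V] {G : SimpleGraph V} [DecidableRel G.Adj]

theorem iso_pb' (h : G.IsSRGWith 100 22 0 6) (v0 : V) :
    ∃ i : G ≃g Cfsg.pointBlockGraph (Blocks G v0), i v0 = none := by
  refine ⟨{ toEquiv := Equiv.ofBijective (toPB G v0) (toPB_bij h v0)
            map_rel_iff' := by
              intro v w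
              exact toPB_adj h v0 v w }, ?_⟩
  show toPB G v0 v0 = none
  unfold toPB
  rw [dif_pos rfl]

/-- isomorphic set systems have isomorphic point-block graphs, explicitly -/
theorem pb_iso' {α β : Type*} [DecidableEq α] [DecidableEq β] {B : Set (Finset α)}
    {B' : Set (Finset β)} (e : α ≃ β) (he : (fun b => b.image e) '' B = B') :
    ∃ i : Cfsg.pointBlockGraph B ≃g Cfsg.pointBlockGraph B', i none = none ∧
      (∀ x, i (some (Sum.inl x)) = some (Sum.inl (e x))) ∧
      ∀ c : ↥B, ∃ c' : ↥B', i (some (Sum.inr c)) = some (Sum.inr c') ∧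
        (c' : Finset β) = (c : Finset α).image e := by
  have hinv : ∀ c' ∈ B', c'.image e.symm ∈ B := by
    intro c' hc'
    rw [← he] at hc'
    obtain ⟨c, hc, rfl⟩ := hc'
    rw [Finset.image_image]
    have : (e.symm ∘ e) = id := by
      funext x
      simp
    rw [this, Finset.image_id]
    exact hc
  let be : ↥B ≃ ↥B' :=
    { toFun := fun c => ⟨c.1.image e, he ▸ ⟨c.1, c.2, rfl⟩⟩
      invFun := fun c' => ⟨c'.1.image e.symm, hinv c'.1 c'.2⟩
      left_inv := by
        intro c
        apply Subtype.ext
        show (c.1.image e).image e.symm = c.1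
        rw [Finset.image_image]
        have : (e.symm ∘ e) = id := by
          funext x
          simp
        rw [this, Finset.image_id]
      right_inv := by
        intro c'
        apply Subtype.ext
        show (c'.1.image e.symm).image e = c'.1
        rw [Finset.image_image]
        have : (e ∘ e.symm) = id := by
          funext x
          simp
        rw [this, Finset.image_id] }
  have hrel : ∀ a b : Option (α ⊕ ↥B),
      Cfsg.pointBlockRel B' (Equiv.optionCongr (Equiv.sumCongr e be) a)
        (Equiv.optionCongr (Equiv.sumCongr e be) b) ↔ Cfsg.pointBlockRel B a b := by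
    intro a b
    rcases a with _ | a | a <;> rcases b with _ | b | b <;>
      simp only [Cfsg.pointBlockRel, Equiv.optionCongr_apply, Option.map_none, Option.map_some,
        Equiv.sumCongr_apply, Sum.map_inl, Sum.map_inr]
    · exact Function.Injective.mem_finset_image e.injective
    · exact Finset.disjoint_image e.injective
  refine ⟨{ toEquiv := Equiv.optionCongr (Equiv.sumCongr e be), map_rel_iff' := ?_ },
    rfl, fun x => rfl, fun c => ⟨be c, rfl, rfl⟩⟩
  intro a b
  unfold Cfsg.pointBlockGraph
  rw [SimpleGraph.fromRel_adj, SimpleGraph.fromRel_adj, hrel, hrel]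
  rw [(Equiv.optionCongr (Equiv.sumCongr e be)).injective.ne_iff]

omit [Fintype V] [DecidableEq V] in
theorem adj_none_iff {α : Type*} {B : Set (Finset α)} (v : Option (α ⊕ ↥B)) :
    (Cfsg.pointBlockGraph B).Adj none v ↔ ∃ y, v = some (Sum.inl y) := by
  unfold Cfsg.pointBlockGraph
  rw [SimpleGraph.fromRel_adj]
  rcases v with _ | v | v <;> simp [Cfsg.pointBlockRel]

omit [Fintype V] [DecidableEq V] in
theorem adj_point_block {α : Type*} {B : Set (Finset α)} (x : α) (c : ↥B) :
    (Cfsg.pointBlockGraph B).Adj (some (Sum.inl x)) (some (Sum.inr c)) ↔ x ∈ (c : Finset α) := by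
  unfold Cfsg.pointBlockGraph
  rw [SimpleGraph.fromRel_adj]
  simp [Cfsg.pointBlockRel]

end Cfsg.Agent.Helper29.SRG100
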