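import Mathlib
import Cfsg.Prelude.Def_GeometricClasses
import Cfsg.Prelude.Def_Classical
import Cfsg.Prelude.Def_LieClassical
import Cfsg.Agent.S0278

set_option autoImplicit false
open scoped MatrixGroups

namespace Cfsg.Agent.Helper29.U3E

variable {F : Type*} [Field F] [Fintype F] {p : ℕ} [Fact p.Prime] [CharP F p]

theorem arith81 : ∀ b : ℕ, b < 81 → (b % 9 = 2 ∨ b % 9 = 5) →
    (b ^ 3 * (b ^ 2 + 80) * (b ^ 3 + 1)) % 81 ≠ 0 := by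
  decide

theorem not81 (p : ℕ) (hp3 : p % 3 = 2) (hp9 : p % 9 ≠ 8) :
    ¬ (81 ∣ p ^ 3 * (p ^ 2 - 1) * (p ^ 3 + 1)) := by
  intro h
  have hp1 : 1 ≤ p ^ 2 := Nat.one_le_pow _ _ (by omega)
  have h2 : 81 ∣ p ^ 3 * (p ^ 2 + 80) * (p ^ 3 + 1) := by
    have e : p ^ 3 * (p ^ 2 + 80) * (p ^ 3 + 1)
        = p ^ 3 * (p ^ 2 - 1) * (p ^ 3 + 1) + 81 * (p ^ 3 * (p ^ 3 + 1)) := by
      have : p ^ 2 + 80 = (p ^ 2 - 1) + 81 := by omega
      rw [this]; ring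
    rw [e]
    exact dvd_add h (dvd_mul_right _ _)
  have hb : p % 81 ≡ p [MOD 81] := Nat.mod_modEq p 81
  have h3 : (p % 81) ^ 3 * ((p % 81) ^ 2 + 80) * ((p % 81) ^ 3 + 1)
      ≡ p ^ 3 * (p ^ 2 + 80) * (p ^ 3 + 1) [MOD 81] :=
    ((hb.pow 3).mul ((hb.pow 2).add_right 80)).mul ((hb.pow 3).add_right 1)
  have h4 : ((p % 81) ^ 3 * ((p % 81) ^ 2 + 80) * ((p % 81) ^ 3 + 1)) % 81 = 0 := by
    rw [h3]
    exact Nat.mod_eq_zero_of_dvd h2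
  have h5 : (p % 81) % 9 = 2 ∨ (p % 81) % 9 = 5 := by omega
  exact arith81 (p % 81) (Nat.mod_lt _ (by norm_num)) h5 h4

theorem K_eq : (Cfsg.GU 3 F p ⊓ Cfsg.Geo.specialLinear (Fin 3) F)
    = (Cfsg.SU 3 F p).map (Matrix.SpecialLinearGroup.toGL :
        Matrix.SpecialLinearGroup (Fin 3) F →* GL (Fin 3) F) := by
  ext g
  constructor
  · rintro ⟨hg1, hg2⟩
    have hdet : (g : Matrix (Fin 3) (Fin 3) F).det = 1 := by
      have h1 : Matrix.GeneralLinearGroup.det g = 1 := MonoidHom.mem_ker.mp hg2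
      have h2 := congrArg Units.val h1
      simpa using h2
    refine ⟨⟨(g : Matrix (Fin 3) (Fin 3) F), hdet⟩, ?_, ?_⟩
    · exact hg1
    · apply Units.ext
      rfl
  · rintro ⟨s, hs, rfl⟩
    refine ⟨hs, ?_⟩
    show Matrix.SpecialLinearGroup.toGL s ∈ (Matrix.GeneralLinearGroup.det : GL (Fin 3) F →* Fˣ).ker
    rw [MonoidHom.mem_ker]
    apply Units.ext
    simp

theorem card_K (hF : Fintype.card F = p ^ 2) :
    Nat.card ↥(Cfsg.GU 3 F p ⊓ Cfsg.Geo.specialLinear (Fin 3) F)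
      = p ^ 3 * (p ^ 2 - 1) * (p ^ 3 + 1) := by
  rw [K_eq, Subgroup.card_map_of_injective Matrix.SpecialLinearGroup.toGL_injective]
  have h := Cfsg.Agent.S0278.result (F := F) (q := p) hF 3 (by norm_num)
  have hpos : 0 < p + 1 := by omega
  have e : p ^ (3 * (3 - 1) / 2) * ∏ i ∈ Finset.range 3, (if Even i then p ^ (i + 1) + 1 else p ^ (i + 1) - 1)
      = (p + 1) * (p ^ 3 * (p ^ 2 - 1) * (p ^ 3 + 1)) := by
    simp [Finset.prod_range_succ]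
    ring
  rw [e] at h
  exact Nat.eq_of_mul_eq_mul_left hpos h

theorem no3 (hF : Fintype.card F = p ^ 2) (hp3 : p % 3 = 2) (hp9 : p % 9 ≠ 8) (N R : Subgroup (GL (Fin 3) F)) (hR : Nat.card R = 27) (hRN : R ≤ N) (hRS : R ≤ Cfsg.GU 3 F p ⊓ Cfsg.Geo.specialLinear (Fin 3) F) : ¬ (3 ∣ N.relIndex (Cfsg.GU 3 F p ⊓ Cfsg.Geo.specialLinear (Fin 3) F)) := by
  intro h3
  have h1 : Nat.card ↥(N ⊓ (Cfsg.GU 3 F p ⊓ Cfsg.Geo.specialLinear (Fin 3) F))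
      * N.relIndex (Cfsg.GU 3 F p ⊓ Cfsg.Geo.specialLinear (Fin 3) F)
      = Nat.card ↥(Cfsg.GU 3 F p ⊓ Cfsg.Geo.specialLinear (Fin 3) F) := by
    have := Subgroup.relIndex_mul_relIndex (⊥ : Subgroup (GL (Fin 3) F))
      (N ⊓ (Cfsg.GU 3 F p ⊓ Cfsg.Geo.specialLinear (Fin 3) F))
      (Cfsg.GU 3 F p ⊓ Cfsg.Geo.specialLinear (Fin 3) F) bot_le inf_le_right
    rw [Subgroup.relIndex_bot_left, Subgroup.relIndex_bot_left, Subgroup.inf_relIndex_right] at this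
    exact this
  have h2 : 27 ∣ Nat.card ↥(N ⊓ (Cfsg.GU 3 F p ⊓ Cfsg.Geo.specialLinear (Fin 3) F)) := by
    rw [← hR]
    exact Subgroup.card_dvd_of_le (le_inf hRN hRS)
  have h4 : 81 ∣ Nat.card ↥(Cfsg.GU 3 F p ⊓ Cfsg.Geo.specialLinear (Fin 3) F) := by
    rw [← h1]
    exact Nat.mul_dvd_mul h2 h3
  rw [card_K hF] at h4
  exact not81 p hp3 hp9 h4

end Cfsg.Agent.Helper29.U3E
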